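import Cfsg.Agent.Ree.SL2Pres
import Mathlib.FieldTheory.Finite.Basic
/-! Rank one Steinberg systems (`R1`): over a finite field `h` is multiplicative (`R1.mult`), so that `SL₂` maps onto
the group generated (`R1.exists_hom`). -/

set_option autoImplicit false

namespace Cfsg.Agent.TwM

open Cfsg.Agent.Classical
open scoped MatrixGroups

/-- A rank one Steinberg system. -/
structure R1 (F G : Type*) [Field F] [Group G] where
  /-- the positive elements -/
  x : F → G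
  /-- the negative elements -/
  y : F → G
  x_add : ∀ t u, x (t + u) = x t * x u
  y_add : ∀ t u, y (t + u) = y t * y u
  nx : ∀ t, t ≠ 0 → ∀ u, x t * y (-t⁻¹) * x t * x u = y (-(u / t ^ 2)) * (x t * y (-t⁻¹) * x t)
  ny : ∀ t, t ≠ 0 → ∀ u, x t * y (-t⁻¹) * x t * y u = x (-(t ^ 2 * u)) * (x t * y (-t⁻¹) * x t)

namespace R1

variable {F G : Type*} [Field F] [Group G] (X : R1 F G)

/-- The monomial elements. -/
def n (t : F) : G := X.x t * X.y (-t⁻¹) * X.x t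

/-- The diagonal elements. -/
def h (t : F) : G := X.n t * X.n (-1)

theorem x_neg (t : F) : X.x (-t) = (X.x t)⁻¹ := by
  have := X.x_add 0 0
  rw [eq_inv_iff_mul_eq_one, ← X.x_add, neg_add_cancel]; simpa using this

theorem y_neg (t : F) : X.y (-t) = (X.y t)⁻¹ := by
  have := X.y_add 0 0
  rw [eq_inv_iff_mul_eq_one, ← X.y_add, neg_add_cancel]; simpa using this

theorem n_neg (t : F) : X.n (-t) = (X.n t)⁻¹ := by
  rw [n, n, inv_neg, neg_neg, x_neg, y_neg]; group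

theorem n_x {t : F} (ht : t ≠ 0) (u : F) : X.n t * X.x u = X.y (-(u / t ^ 2)) * X.n t := X.nx t ht u

theorem n_y {t : F} (ht : t ≠ 0) (u : F) : X.n t * X.y u = X.x (-(t ^ 2 * u)) * X.n t := X.ny t ht u

theorem h_x {t : F} (ht : t ≠ 0) (u : F) : X.h t * X.x u = X.x (t ^ 2 * u) * X.h t := by
  rw [h, mul_assoc, X.n_x (by simp), ← mul_assoc, X.n_y ht, mul_assoc]; simp

theorem h_y {t : F} (ht : t ≠ 0) (u : F) : X.h t * X.y u = X.y (u / t ^ 2) * X.h t := by
  rw [h, mul_assoc, X.n_y (by simp), ← mul_assoc, X.n_x ht, mul_assoc]; simp [neg_div]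

theorem h_n {s : F} (hs : s ≠ 0) (t : F) : X.h s * X.n t * (X.h s)⁻¹ = X.n (s ^ 2 * t) := by
  rw [n, n, ← mul_assoc, ← mul_assoc, X.h_x hs, mul_assoc _ (X.h s), X.h_y hs, ← mul_assoc, mul_assoc _ (X.h s),
    X.h_x hs, ← mul_assoc, mul_inv_cancel_right, mul_inv, neg_div, div_eq_inv_mul]

theorem h_eq (t : F) : X.h t = X.n t * (X.n 1)⁻¹ := by rw [h, n_neg]

theorem y_eq (t : F) : X.y (-t⁻¹) = X.x (-t) * X.n t * X.x (-t) := by
  rw [n, x_neg]; group

theorem n_mul_n_mul_n {a b : F} (ha : a ≠ 0) (hb : b ≠ 0) (h : a + b ≠ 0) :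
    X.n (-(a ^ 2 / (a + b))) * X.n a * X.n b = X.n (a * b / (a + b)) := by
  have e1 := X.y_add (-a⁻¹) (-b⁻¹)
  rw [show -a⁻¹ + -b⁻¹ = -(a * b / (a + b))⁻¹ by field_simp; ring, y_eq, y_eq, y_eq] at e1
  have e2 := X.n_x ha (-a + -b)
  rw [show -((-a + -b) / a ^ 2) = -(-(a ^ 2 / (a + b)))⁻¹ by field_simp; ring, y_eq, X.x_add] at e2
  have e3 : X.n a * X.n b * X.x (b ^ 2 / (a + b)) = X.x (- -(a ^ 2 / (a + b))) * (X.n a * X.n b) := by
    rw [mul_assoc, X.n_x hb, ← mul_assoc, X.n_y ha, mul_assoc]; congr 2; field_simp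
  have e4 : X.x (-(a * b / (a + b))) = X.x (-a) * X.x (- -(a ^ 2 / (a + b))) := by
    rw [← X.x_add]; congr 1; field_simp; ring
  have e5 : X.x (-(a * b / (a + b))) = X.x (b ^ 2 / (a + b)) * X.x (-b) := by
    rw [← X.x_add]; congr 1; field_simp; ring
  nth_rewrite 1 [e4] at e1
  rw [e5] at e1
  refine mul_left_cancel (a := X.x (-a) * X.x (- -(a ^ 2 / (a + b))))
    (mul_right_cancel (b := X.x (b ^ 2 / (a + b)) * X.x (-b)) (Eq.trans ?_ e1.symm))
  calc _ = X.x (-a) * (X.x (- -(a ^ 2 / (a + b))) * X.n (-(a ^ 2 / (a + b)))) *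
      (X.n a * X.n b * X.x (b ^ 2 / (a + b))) * X.x (-b) := by group
    _ = X.x (-a) * (X.n a * (X.x (-a) * X.x (-b))) * X.n b * X.x (-b) := by rw [e3, e2]; group
    _ = _ := by group

theorem n_one_conj_h {t : F} (ht : t ≠ 0) : X.n 1 * X.h t = X.h t⁻¹ * X.n 1 := by
  have e1 : X.n 1 * X.n t = X.y (-t) * X.x t⁻¹ * X.y (-t) * X.n 1 := by
    rw [show X.n t = X.x t * X.y (-t⁻¹) * X.x t from rfl, ← mul_assoc, ← mul_assoc, X.n_x one_ne_zero,
      mul_assoc _ (X.n 1), X.n_y one_ne_zero, ← mul_assoc, mul_assoc _ (X.n 1), X.n_x one_ne_zero, ← mul_assoc]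
    simp
  have e2 : X.y (-t) * X.x t⁻¹ * X.y (-t) = X.n t⁻¹ := by
    have e4 := X.n_x (inv_ne_zero ht) t⁻¹
    rw [show -(t⁻¹ / t⁻¹ ^ 2) = -t by field_simp] at e4
    apply mul_right_cancel (b := X.x t⁻¹)
    rw [e4, n, inv_inv]; group
  rw [h, h, ← mul_assoc, e1, e2, n_neg]; group

theorem h_mul_h_inv {a b : F} (ha : a ≠ 0) (hb : b ≠ 0) (h : a + b = 1) :
    X.h a * X.h b⁻¹ = X.h (a ^ 2) * X.h (a * b)⁻¹ := by
  have e := X.n_mul_n_mul_n ha hb (h ▸ one_ne_zero)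
  have e0 : ∀ t, X.n t = X.h t * X.n 1 := fun t => by rw [h_eq, inv_mul_cancel_right]
  rw [h, div_one, div_one, n_neg, mul_assoc, inv_mul_eq_iff_eq_mul, e0 a, e0 b,
    e0 (a ^ 2), e0 (a * b), mul_assoc, mul_assoc, ← mul_assoc (X.n 1), ← mul_assoc (X.n 1),
    X.n_one_conj_h hb, X.n_one_conj_h (mul_ne_zero ha hb)] at e
  simpa only [← mul_assoc, mul_left_inj] using e

theorem h_comm [Finite F] {t u : F} (ht : t ≠ 0) (hu : u ≠ 0) : Commute (X.h t) (X.h u) := by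
  obtain ⟨v, hv⟩ := IsCyclic.exists_monoid_generator (α := Fˣ)
  have key : ∀ t : F, t ≠ 0 → ∃ k : ℕ, ∃ z, X.h t = X.h v ^ k * z ∧ ∀ s, Commute z (X.h s) := fun t ht => by
    obtain ⟨k, hk⟩ := hv (Units.mk0 t ht)
    obtain rfl : (v : F) ^ k = t := by simpa using congrArg Units.val hk
    have h1 : ∀ (k : ℕ) s, X.h v ^ k * X.x s = X.x ((v ^ k) ^ 2 * s) * X.h v ^ k ∧
        X.h v ^ k * X.y s = X.y (s / (v ^ k) ^ 2) * X.h v ^ k := fun k => by
      induction k with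
      | zero => simp
      | succ k ih =>
        intro s
        constructor
        · rw [pow_succ (X.h v), mul_assoc, X.h_x v.ne_zero, ← mul_assoc, (ih _).1, mul_assoc]; congr 2; ring
        · rw [pow_succ (X.h v), mul_assoc, X.h_y v.ne_zero, ← mul_assoc, (ih _).2, mul_assoc]; congr 2; ring
    have h2 : ∀ s, Commute ((X.h v ^ k)⁻¹ * X.h (v ^ k)) (X.x s) ∧ Commute ((X.h v ^ k)⁻¹ * X.h (v ^ k)) (X.y s) :=
      fun s => by
        rw [Commute, Commute, SemiconjBy, SemiconjBy, mul_assoc, mul_assoc, X.h_x ht, X.h_y ht, ← mul_assoc,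
          ← mul_assoc, ← mul_assoc, ← mul_assoc, mul_left_inj, mul_left_inj, inv_mul_eq_iff_eq_mul,
          inv_mul_eq_iff_eq_mul, ← mul_assoc, ← mul_assoc, (h1 k s).1, (h1 k s).2]
        simp
    have h3 : ∀ s, Commute ((X.h v ^ k)⁻¹ * X.h (v ^ k)) (X.n s) := fun s =>
      ((h2 _).1.mul_right (h2 _).2).mul_right (h2 _).1
    exact ⟨k, _, by group, fun s => (h3 _).mul_right (h3 _)⟩
  obtain ⟨k, z, e, hz⟩ := key t ht
  obtain ⟨k', z', e', hz'⟩ := key u hu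
  rw [e]
  refine .mul_left ?_ (hz u)
  rw [e']
  exact ((Commute.refl _).pow_pow k k').mul_right ((hz' _).pow_right k).symm

theorem mult [Finite F] (t u : F) (ht : t ≠ 0) (hu : u ≠ 0) : X.h t * X.h u = X.h (t * u) := by
  have := Fintype.ofFinite F
  have sq : ∀ s u : F, s ≠ 0 → u ≠ 0 → X.h (u * s ^ 2) = X.h u * X.h (s ^ 2) := fun s u hs hu => by
    have e1 := X.h_n hs u
    have e2 := X.h_n hs 1
    rw [mul_one] at e2
    have : X.h s * X.h u * (X.h s)⁻¹ = X.h (s ^ 2 * u) * (X.h (s ^ 2))⁻¹ := by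
      rw [X.h_eq u, X.h_eq (_ * _), X.h_eq (s ^ 2), ← e1, ← e2]; group
    rw [(X.h_comm hs hu).eq, mul_inv_cancel_right, eq_mul_inv_iff_mul_eq] at this
    rw [mul_comm, this]
  have key : ∀ t u s s' : F, t ≠ 0 → u ≠ 0 → s ≠ 0 → s' ≠ 0 →
      (X.h (t * s ^ 2) * X.h (u * s' ^ 2) = X.h (t * s ^ 2 * (u * s' ^ 2)) ↔
        X.h t * X.h u = X.h (t * u)) := fun t u s s' ht hu hs hs' => by
    rw [show t * s ^ 2 * (u * s' ^ 2) = t * u * s ^ 2 * s' ^ 2 by ring, sq _ _ hs ht, sq _ _ hs' hu,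
      sq _ _ hs' (by simp [*]), sq _ _ hs (by simp [*]), ← mul_assoc, mul_assoc (X.h t),
      (X.h_comm (by simp [*]) hu).eq, ← mul_assoc, mul_left_inj, mul_left_inj]
  obtain ⟨v, hv⟩ := IsCyclic.exists_monoid_generator (α := Fˣ)
  have hvv : X.h v * X.h v = X.h (v * v) := by
    by_cases h : IsSquare (v : F)
    · obtain ⟨w, hw⟩ := h
      have := sq w v (by rintro rfl; simp at hw) v.ne_zero
      rw [pow_two, ← hw] at this
      exact this.symm
    have h2 : Fintype.card F % 2 = 1 := FiniteField.odd_card_of_char_ne_two fun e =>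
      h (FiniteField.isSquare_of_char_two e _)
    obtain ⟨a, b, e⟩ := FiniteField.exists_root_sum_quadratic (f := Polynomial.C (v : F) * Polynomial.X ^ 2)
      (g := Polynomial.C (v : F) * Polynomial.X ^ 2 - 1) (by compute_degree!) (by compute_degree!) h2
    simp only [Polynomial.eval_mul, Polynomial.eval_C, Polynomial.eval_pow, Polynomial.eval_X, Polynomial.eval_sub,
      Polynomial.eval_one] at e
    have k0 : ∀ {a b : F}, v * a ^ 2 + v * b ^ 2 = 1 → a ≠ 0 := by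
      rintro _ b e rfl
      exact h ⟨v * b, by linear_combination (-v : F) * e⟩
    have ha : a ≠ 0 := k0 (b := b) (by linear_combination e)
    have hb : b ≠ 0 := k0 (b := a) (by linear_combination e)
    have e1 := X.h_mul_h_inv (a := v * a ^ 2) (b := v * b ^ 2) (by simp [ha]) (by simp [hb])
      (by linear_combination e)
    rw [(X.h_comm (t := _ ^ 2) (by simp [ha]) (by simp [ha, hb])).eq, ← sq _ _ (by simp [ha]) (by simp [ha, hb]),
      show (v * b ^ 2 : F)⁻¹ = v * (v * b)⁻¹ ^ 2 by field_simp] at e1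
    refine (key v v a (v * b)⁻¹ v.ne_zero v.ne_zero ha (by simp [hb])).1 (e1.trans ?_)
    congr 1; field_simp
  have dec : ∀ t : F, t ≠ 0 → ∃ s, s ≠ 0 ∧ (t = 1 * s ^ 2 ∨ t = v * s ^ 2) := fun t ht => by
    obtain ⟨k, hk⟩ := hv (Units.mk0 t ht)
    obtain rfl : (v : F) ^ k = t := by simpa using congrArg Units.val hk
    obtain ⟨m, rfl | rfl⟩ := Nat.even_or_odd' k
    exacts [⟨v ^ m, by simp, .inl (by ring)⟩, ⟨v ^ m, by simp, .inr (by ring)⟩]
  obtain ⟨s, hs, rfl | rfl⟩ := dec t ht <;> obtain ⟨s', hs', rfl | rfl⟩ := dec u hu <;>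
    rw [key _ _ _ _ (by simp) (by simp) hs hs'] <;> simp [X.h_eq 1, hvv]

theorem exists_hom [Finite F] : ∃ φ : SL(2, F) →* G, (∀ t, φ (uSL t) = X.x t) ∧ ∀ t, φ (lSL t) = X.y t :=
  Ree.exists_SL2_hom X.x X.y X.n X.h X.x_add X.y_add (fun _ => rfl) (fun _ => rfl)
    (fun t ht u => by rw [X.n_x ht, mul_inv_cancel_right, inv_pow, div_eq_inv_mul]) X.mult

end R1

end Cfsg.Agent.TwM
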