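import Cfsg.Agent.ChAut.TwNode
import Cfsg.Agent.TwM.R1
import Cfsg.Agent.Schur.Lift
import Cfsg.Agent.Mult.K2
import Mathlib.GroupTheory.SchurZassenhaus
/-! Central extensions of twisted groups in which `U` lifts canonically (`PL`): the kernel lies in the product of
the rank one tori (`PL.ker_eq_bot`). -/

set_option autoImplicit false

namespace Cfsg.Agent.TwM

open Cfsg.Lie Cfsg.Agent.Chev Cfsg.Agent.Chev.Sys Cfsg.Agent.ChAut

variable {D : ChevalleyDatum} [Good D] {K : Type*} [Field K] {G E : Type*} [Group G] [Group E]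

/-- A central extension of `Γ` with a canonical lift `V` of `U ⊓ Γ`. -/
structure PL (X : Sys D K G) (Γ : Subgroup G) (τ : E →* G) (V : Subgroup E) : Prop where
  mem : ∀ g, τ g ∈ Γ
  surj : ∀ y ∈ Γ, ∃ g, τ g = y
  cent : τ.ker ≤ Subgroup.center E
  up : ∀ v ∈ V, τ v ∈ X.UP
  lift : ∀ u ∈ X.UP, u ∈ Γ → ∃ v ∈ V, τ v = u
  conj : ∀ g, ∀ v ∈ V, τ (g * v * g⁻¹) ∈ X.UP → g * v * g⁻¹ ∈ V
  inj : ∀ v ∈ V, τ v = 1 → v = 1

/-- Conjugates of elements of `V`. -/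
def Pe (V : Subgroup E) (g : E) : Prop := ∃ x, x * g * x⁻¹ ∈ V

theorem Pe.conj {V : Subgroup E} {g : E} (h : Pe V g) (y : E) : Pe V (y * g * y⁻¹) :=
  h.elim fun x hx => ⟨x * y⁻¹, by simpa [mul_assoc] using hx⟩

theorem Pe.of_mem {V : Subgroup E} {g : E} (h : g ∈ V) : Pe V g := ⟨1, by simpa⟩

/-- The lift of a Levi factor. -/
def Lh (X : Sys D K G) (τ : E →* G) (V : Subgroup E) (J : Set (Sm D)) : Subgroup E :=
  Subgroup.closure {g | Pe V g ∧ (τ g ∈ X.U {r | Pos r ∧ InJ J r} ∨ τ g ∈ X.U {r | ¬ Pos r ∧ InJ J r})}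

variable {X : Sys D K G} {Γ : Subgroup G} {τ : E →* G} {V : Subgroup E} {S : Sym D}

theorem Lh_le (J : Set (Sm D)) {g : E} (h : g ∈ Lh X τ V J) : τ g ∈ X.U {r | InJ J r} :=
  (Subgroup.closure_le ((X.U _).comap τ)).2
    (fun _ h => h.2.elim (fun e => X.U_mono (fun _ h => And.right h) e) fun e => X.U_mono (fun _ h => And.right h) e) h

theorem conj_Lh {I J : Set (Sm D)} {y : E} {w : WG D} (hy : X.Mon (τ y) w) (h1 : ∀ j ∈ I, Pos (w • sm j))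
    (h2 : ∀ j ∈ I, InJ J (w • sm j)) {g : E} (h : g ∈ Lh X τ V I) : y * g * y⁻¹ ∈ Lh X τ V J := by
  have h3 : ∀ r, InJ I r → InJ J (w • r) := fun r hr i hi => by
    rw [rtv_smul_eq_sum, Finset.sum_apply]
    refine Finset.sum_eq_zero fun j _ => ?_
    by_cases e : j ∈ I
    · simp [h2 j e i hi]
    · simp [hr j e]
  refine (Subgroup.closure_le ((Lh X τ V J).comap (MulAut.conj y).toMonoidHom)).2 (fun g h =>
    Subgroup.subset_closure ⟨h.1.conj y, h.2.imp (fun e => ?_) fun e => ?_⟩) h <;>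
    simp only [MulEquiv.coe_toMonoidHom, MulAut.conj_apply, map_mul, map_inv]
  · exact hy.conj_mem_U (fun r hr => And.intro (pos_smul_of_inJ h1 hr.1 hr.2) (h3 r hr.2)) e
  · refine hy.conj_mem_U (fun r hr => And.intro ?_ (h3 r hr.2)) e
    rw [← pos_ng_iff, ← smul_ng]
    exact pos_smul_of_inJ h1 (pos_ng_iff.2 hr.1) (inJ_ng.2 hr.2)

variable (X τ V S) in
/-- The lifts of the generators of `N`. -/
def Gn (i : Sm D) (n : E) : Prop := n ∈ Lh X τ V (S.orb i) ∧ τ n ∈ X.N ∧ X.Mon (τ n) (S.w1 i)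

variable (X τ V S) in
/-- The group generated by the rank one tori. -/
def Tt : Subgroup E := ⨆ i, Lh X τ V (S.orb i) ⊓ X.H.comap τ

theorem Tt_le : Tt X τ V S ≤ X.H.comap τ := iSup_le fun _ => inf_le_right

theorem mem_Tt {i : Sm D} {t : E} (h1 : t ∈ Lh X τ V (S.orb i)) (h2 : τ t ∈ X.H) : t ∈ Tt X τ V S :=
  Subgroup.mem_iSup_of_mem i ⟨h1, h2⟩

variable [Conn D]

theorem conj_Lh_H {J : Set (Sm D)} {y g : E} (hy : τ y ∈ X.H) (h : g ∈ Lh X τ V J) : y * g * y⁻¹ ∈ Lh X τ V J :=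
  conj_Lh (mon_of_mem_H hy) (fun j _ => by simpa using pos_sm j) (fun j hj => by simpa using inJ_sm.2 hj) h

theorem Gn.conj_T {i : Sm D} {n t : E} (h : Gn X τ V S i n) (ht : t ∈ Tt X τ V S) : n * t * n⁻¹ ∈ Tt X τ V S := by
  have := mul_mem (mem_Tt (t := n * (t * n⁻¹ * t⁻¹)) (mul_mem h.1 (conj_Lh_H (Tt_le ht) (inv_mem h.1))) (by
    simpa [mul_assoc] using mul_mem (conj_mem_H h.2.1 (Tt_le ht)) (inv_mem (Tt_le ht)))) ht
  simpa [mul_assoc] using this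

/-- The product of a list of generators. -/
def pr {ι : Type*} (l : List (ι × E)) : E := (l.map Prod.snd).prod

@[simp] theorem pr_nil {ι : Type*} : pr ([] : List (ι × E)) = 1 := rfl

@[simp] theorem pr_cons {ι : Type*} (p : ι × E) (l : List (ι × E)) : pr (p :: l) = p.2 * pr l := rfl

@[simp] theorem pr_append {ι : Type*} (l l' : List (ι × E)) : pr (l ++ l') = pr l * pr l' := by simp [pr]

omit [Conn D] in
theorem w1_inv (S : Sym D) (i : Sm D) : (S.w1 i)⁻¹ = S.w1 i := w0_inv _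

theorem pr_conj_T {l : List (Sm D × E)} (hl : ∀ p ∈ l, Gn X τ V S p.1 p.2) {t : E} (ht : t ∈ Tt X τ V S) :
    pr l * t * (pr l)⁻¹ ∈ Tt X τ V S := by
  induction l with
  | nil => simpa
  | cons p l ih =>
    simpa [mul_assoc] using (hl p (.head _)).conj_T (ih fun q hq => hl q (.tail _ hq))

omit [Conn D] in
theorem pr_mon {l : List (Sm D × E)} (hl : ∀ p ∈ l, Gn X τ V S p.1 p.2) :
    τ (pr l) ∈ X.N ∧ ∃ w ∈ S.W1, X.Mon (τ (pr l)) w := by
  induction l with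
  | nil => exact ⟨by simp [one_mem], 1, one_mem _, by simpa using X.mon_one⟩
  | cons p l ih =>
    obtain ⟨h1, w, h2, h3⟩ := ih fun q hq => hl q (.tail _ hq)
    obtain ⟨-, a1, a2⟩ := hl p (.head _)
    simp only [pr_cons, map_mul]
    exact ⟨mul_mem a1 h1, _, mul_mem (S.w1_mem _) h2, a2.mul h3⟩

omit [Conn D] in
theorem pr_split (c : X.Cover) {l : List (Sm D × E)} (hl : ∀ p ∈ l, Gn X τ V S p.1 p.2) {w : WG D}
    (hw : X.Mon (τ (pr l)) w) {β : Rt D} (h1 : Pos β) (h2 : ¬ Pos (w⁻¹ • β)) : ∃ l1 p l2 v, l = l1 ++ p :: l2 ∧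
      X.Mon (τ (pr l1)) v ∧ Pos (v⁻¹ • β) ∧ InJ (S.orb p.1) (v⁻¹ • β) := by
  induction l generalizing w β with
  | nil => exact absurd (by rw [c.mon_unique hw (by simpa using X.mon_one)]; simpa) h2
  | cons p l ih =>
    obtain ⟨-, v, -, h3⟩ := pr_mon fun q hq => hl q (.tail _ hq)
    obtain ⟨-, -, a2⟩ := hl p (.head _)
    by_cases e : InJ (S.orb p.1) β
    · exact ⟨[], p, l, 1, rfl, by simpa using X.mon_one, by simpa, by simpa⟩
    obtain ⟨l1, q, l2, v', rfl, b1, b2, b3⟩ := ih (fun q hq => hl q (.tail _ hq)) h3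
      (pos_smul_of_not_inJ (w0_mem _) h1 e) (by
        rwa [c.mon_unique hw (by simpa using a2.mul h3), mul_inv_rev, mul_smul, w1_inv] at h2)
    refine ⟨p :: l1, q, l2, _, rfl, by simpa using a2.mul b1, ?_⟩
    rw [mul_inv_rev, mul_smul, w1_inv]
    exact ⟨b2, b3⟩

variable (h : X.Fold S Γ) (c : X.Cover) (L : PL X Γ τ V)
include h c L

theorem PL.mon_cases {i : Sm D} {n : E} (h1 : n ∈ Lh X τ V (S.orb i)) (h2 : τ n ∈ X.N) {w : WG D}
    (h3 : X.Mon (τ n) w) : w = 1 ∨ w = S.w1 i :=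
  S.eq_one_or_w1 ((c.mem_P_iff (h3.cell h2)).1 (X.rad_sup_levi _ ▸ Subgroup.mem_sup_right
    (Subgroup.mem_sup_right (Lh_le _ h1)))) (h.stable.mem_W1 h2 h3 (L.mem n))

theorem PL.pr_mem_T (k : ℕ) : ∀ l : List (Sm D × E), l.length ≤ k → (∀ p ∈ l, Gn X τ V S p.1 p.2) →
    X.Mon (τ (pr l)) 1 → pr l ∈ Tt X τ V S := by
  induction k with
  | zero => intro l h1 _ _; simp [List.length_eq_zero_iff.1 (Nat.le_zero.1 h1), one_mem]
  | succ k ih =>
    rintro (_ | ⟨p, l⟩) h1 hl h3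
    · simp [one_mem]
    obtain ⟨-, w, -, a1⟩ := pr_mon fun q hq => hl q (.tail _ hq)
    obtain ⟨a2, a3, a4⟩ := hl p (.head _)
    obtain rfl : w = S.w1 p.1 := by
      rw [← w1_inv S p.1]; exact eq_inv_of_mul_eq_one_right (c.mon_unique (by simpa using a4.mul a1) h3)
    obtain ⟨l1, q, l2, v, rfl, b1, b2, b3⟩ := pr_split c (fun q hq => hl q (.tail _ hq)) a1 (pos_sm p.1)
      (by rw [w1_inv]; exact not_pos_w0 (pos_sm _) (inJ_sm.2 (S.mem_orb _)))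
    have c1 : ∀ p ∈ l1, Gn X τ V S p.1 p.2 := fun q hq => hl q (by simp [hq])
    obtain ⟨c2, v', c3, c4⟩ := pr_mon c1
    obtain rfl := c.mon_unique c4 b1
    obtain ⟨d1, d2, d3⟩ := hl q (by simp)
    have e1 : (pr l1)⁻¹ * p.2 * (pr l1)⁻¹⁻¹ ∈ Lh X τ V (S.orb q.1) :=
      conj_Lh (by simpa using b1.inv) (fun j hj => (S.pos_orb (inv_mem c3) hj).2 b2) (fun j hj =>
        S.orb_induction (P := fun j => InJ (S.orb q.1) (v'⁻¹ • sm j)) b3 (fun j e => by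
          rwa [← S.ρ_sm, S.smul_ρ (inv_mem c3), S.inJ_ρ (S.π_mem_orb _)]) hj) a2
    have e2 : τ ((pr l1)⁻¹ * p.2 * (pr l1)⁻¹⁻¹) ∈ X.N := by
      simpa using mul_mem (mul_mem (inv_mem c2) a3) c2
    have e3 : X.Mon (τ ((pr l1)⁻¹ * p.2 * (pr l1)⁻¹⁻¹)) (v'⁻¹ * S.w1 p.1 * v') := by
      simpa using (b1.inv.mul a4).mul b1
    have e4 := (L.mon_cases h c e1 e2 e3).resolve_left fun e => S.w1_ne_one p.1 (by
      simpa [mul_assoc] using congrArg (v' * · * v'⁻¹) e)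
    have e5 := mem_Tt (mul_mem e1 d1) (c.mem_H_of_mon (by rw [map_mul]; exact mul_mem e2 d2)
      (by rw [map_mul, ← w0_mul_self (S.orb q.1)]; exact (e4 ▸ e3).mul d3))
    have e6 := pr_conj_T c1 e5
    have e7 : pr (p :: (l1 ++ q :: l2)) = pr l1 * ((pr l1)⁻¹ * p.2 * (pr l1)⁻¹⁻¹ * q.2) * (pr l1)⁻¹ * pr (l1 ++ l2) := by
      simp [mul_assoc]
    rw [e7] at h3 ⊢
    refine mul_mem e6 (ih _ (by simp at h1 ⊢; omega) (fun r hr => hl r (by grind)) ?_)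
    have := (mon_of_mem_H (Tt_le e6)).inv.mul h3
    rwa [map_mul τ _ (pr (l1 ++ l2)), inv_mul_cancel_left, inv_one, mul_one] at this

variable (X τ V S) in
omit h c L [Conn D] in
/-- The lift of the monomial subgroup. -/
def Mm (m : E) : Prop := ∃ t ∈ Tt X τ V S, ∃ l : List (Sm D × E), (∀ p ∈ l, Gn X τ V S p.1 p.2) ∧ m = t * pr l

omit h c L in
theorem Mm.mul {m m' : E} (h : Mm X τ V S m) (h' : Mm X τ V S m') : Mm X τ V S (m * m') := by
  obtain ⟨t, h1, l, h2, rfl⟩ := h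
  obtain ⟨t', h3, l', h4, rfl⟩ := h'
  exact ⟨_, mul_mem h1 (pr_conj_T h2 h3), l ++ l', fun p hp => (List.mem_append.1 hp).elim (h2 p) (h4 p),
    by simp [mul_assoc]⟩

omit h c L [Conn D] in
theorem Gn.mm {i : Sm D} {n : E} (h : Gn X τ V S i n) : Mm X τ V S n := ⟨1, one_mem _, [(i, n)], by simpa, by simp⟩

omit h c L in
theorem Mm.mon {m : E} (h : Mm X τ V S m) : τ m ∈ X.N ∧ ∃ w ∈ S.W1, X.Mon (τ m) w := by
  obtain ⟨t, h1, l, h2, rfl⟩ := h
  obtain ⟨h3, w, h4, h5⟩ := pr_mon h2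
  rw [map_mul]
  exact ⟨mul_mem (X.H_le_N (Tt_le h1)) h3, w, h4, by simpa using (mon_of_mem_H (Tt_le h1)).mul h5⟩

omit h c [Conn D] in
theorem PL.mem_V {g : E} (h1 : Pe V g) (h2 : τ g ∈ X.UP) : g ∈ V := by
  obtain ⟨x, hx⟩ := h1
  simpa [mul_assoc] using L.conj x⁻¹ _ hx (by simpa [mul_assoc] using h2)

omit h c [Conn D] in
theorem PL.eq_of_pe {g g' : E} (h1 : Pe V g) (h2 : Pe V g') (e : τ g = τ g') : g = g' := by
  obtain ⟨x, hx⟩ := h1
  have := L.inj _ (mul_mem (inv_mem hx) (L.mem_V (h2.conj x) (by simpa [← e] using L.up _ hx)))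
    (by simp [e, mul_assoc])
  rwa [inv_mul_eq_one, mul_left_inj, mul_right_inj] at this

theorem PL.rank_one {i : Sm D} {g : E} (h1 : Pe V g) (h2 : τ g ∈ Un1 X S i) (h3 : τ g ≠ 1) :
    ∃ a ∈ V, ∃ n, Gn X τ V S i n ∧ ∃ a' ∈ V, τ a' ∈ Up1 X S i ∧ g = a * n * a' := by
  obtain ⟨u, a1, n, a2, a3, u', a4, e⟩ := canon_Un1 h c h2 (L.mem g) h3
  have b1 : u ∈ Up1 X S i := c.UP_inf_levi _ a1.1 (by
    rw [show u = τ g * u'⁻¹ * n⁻¹ by simp [e]]
    exact mul_mem (mul_mem (Subgroup.mem_sup_right (X.U_mono (fun _ h => And.right h) h2))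
      (inv_mem (Subgroup.mem_sup_right (X.U_mono (fun _ h => And.right h) a4.1))))
      (inv_mem (c.mem_of_mon a2.1 a3 (w0_mem _) le_sup_left fun j hj => Subgroup.mem_sup_right (mul_mem (mul_mem
        (X.x_mem_U (inJ_sm.2 hj) _) (X.x_mem_U (inJ_ng.2 (inJ_sm.2 hj)) _)) (X.x_mem_U (inJ_sm.2 hj) _)))))
  obtain ⟨a, b2, rfl⟩ := L.lift u a1.1 a1.2
  obtain ⟨a', b3, rfl⟩ := L.lift u' (X.U_mono (fun _ h => And.left h) a4.1) a4.2
  have b4 : τ (a⁻¹ * g * a'⁻¹) = n := by simp [e, mul_assoc]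
  exact ⟨a, b2, a⁻¹ * g * a'⁻¹, ⟨mul_mem (mul_mem (inv_mem (Subgroup.subset_closure ⟨.of_mem b2, .inl b1⟩))
    (Subgroup.subset_closure ⟨h1, .inr h2⟩)) (inv_mem (Subgroup.subset_closure ⟨.of_mem b3, .inl a4.1⟩)),
    b4 ▸ a2.1, b4 ▸ a3⟩, a', b3, a4.1, by simp [mul_assoc]⟩

theorem PL.exists_gn (i : Sm D) : ∃ n, Gn X τ V S i n := by
  obtain ⟨n, -, a2, a3⟩ := h.exN i
  obtain ⟨z, b1, b2, b3, b4⟩ := exists_ne_one h i
  obtain ⟨n, rfl⟩ := L.surj n a3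
  obtain ⟨z, b5, rfl⟩ := L.lift z b2 b3
  obtain ⟨-, -, m, hm, -⟩ := L.rank_one h c ((Pe.of_mem b5).conj n) (by simpa using (w1_Un1 a2 _).2 b1)
    (by simpa [mul_inv_eq_one] using b4)
  exact ⟨m, hm⟩

variable (X τ V S) in
omit h c L [Conn D] in
/-- The set `V M V`. -/
def Yy (g : E) : Prop := ∃ v ∈ V, ∃ m, Mm X τ V S m ∧ ∃ v' ∈ V, g = v * m * v'

theorem PL.gn_mul {i : Sm D} {n g : E} (hn : Gn X τ V S i n) (hg : Yy X τ V S g) : Yy X τ V S (n * g) := by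
  obtain ⟨v, h1, m, h2, v', h3, rfl⟩ := hg
  obtain ⟨a, a1, b, a2, e⟩ := exists_mul nilp_Pos {r | ¬ InJ (S.orb i) r} (L.up v h1)
  have a3 : τ n * a * (τ n)⁻¹ ∈ X.UP := hn.2.2.conj_mem_U (fun r hr => pos_smul_of_not_inJ (w0_mem _) hr.1 hr.2) a1
  have a4 : b ∈ Up1 X S i := X.U_mono (fun r hr => And.intro hr.1 (not_not.1 hr.2)) a2
  obtain ⟨b, a5, rfl⟩ := L.lift b (X.U_mono (fun _ h => And.left h) a4) (h.stable _ a3 _ hn.2.1 _ hn.2.2 _
    (UI_w1 (X := X) S i ▸ a4) (by simpa [mul_assoc, ← e] using L.mem (n * v))).2.2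
  have a6 : n * (v * b⁻¹) * n⁻¹ ∈ V := L.conj _ _ (mul_mem h1 (inv_mem a5)) (by simpa [e] using a3)
  have key : ∀ {m b : E} {w}, X.Mon (τ m) w → w ∈ S.W1 → Pos (w⁻¹ • sm i) → b ∈ V → τ b ∈ Up1 X S i →
      m⁻¹ * b * m⁻¹⁻¹ ∈ V := fun {m b w} b1 b2 b3 b4 b5 => L.conj _ _ b4 (by
    simpa using b1.inv.conj_mem_U (fun r hr => pos_smul_of_inJ (fun j hj => (S.pos_orb (inv_mem b2) hj).2 b3)
      hr.1 hr.2) b5)
  obtain ⟨-, w, b1, b2⟩ := h2.mon
  by_cases e1 : Pos (w⁻¹ • sm i)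
  · exact ⟨_, a6, _, hn.mm.mul h2, _, mul_mem (key b2 b1 e1 a5 a4) h3, by group⟩
  by_cases e2 : τ b = 1
  · exact ⟨_, a6, _, hn.mm.mul h2, _, h3, by rw [L.inj b a5 e2]; group⟩
  obtain ⟨a, c1, n', c2, a', c3, c4, e3⟩ := L.rank_one h c ((Pe.of_mem a5).conj n)
    (by simpa using (w1_Un1 hn.2.2 _).2 a4) (by simpa [mul_inv_eq_one] using e2)
  refine ⟨_, mul_mem a6 c1, _, c2.mm.mul (hn.mm.mul h2), _, mul_mem (key (m := n * m) (by simpa using hn.2.2.mul b2)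
    (mul_mem (S.w1_mem i) b1) (by rwa [mul_inv_rev, w1_inv, S.pos_mul_w1 (inv_mem b1)]) c3 c4) h3, ?_⟩
  calc _ = n * (v * b⁻¹) * n⁻¹ * (n * b * n⁻¹) * (n * m) * v' := by group
    _ = _ := by rw [e3]; group

theorem PL.mem_T (hg : Γ ≤ (X.UP ⊓ Γ) ⊔ (X.UN ⊓ Γ)) {z : E} (h1 : τ z = 1) (h2 : z ∈ commutator E) :
    z ∈ Tt X τ V S := by
  let Q : Subgroup E := ⟨⟨⟨{g | ∀ y, Yy X τ V S (g * y) ↔ Yy X τ V S y}, fun ha hb y => by
    rw [mul_assoc, ha, hb]⟩, by simp⟩, fun {x} ha y => by rw [← ha, mul_inv_cancel_left]⟩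
  have q1 : ∀ {g}, (∀ y, Yy X τ V S y → Yy X τ V S (g * y)) → (∀ y, Yy X τ V S y → Yy X τ V S (g⁻¹ * y)) → g ∈ Q :=
    fun a b y => ⟨fun e => by simpa using b _ e, a y⟩
  have q2 : ∀ v ∈ V, ∀ y, Yy X τ V S y → Yy X τ V S (v * y) := by
    rintro v hv _ ⟨a, a1, m, a2, b, a3, rfl⟩
    exact ⟨_, mul_mem hv a1, m, a2, b, a3, by group⟩
  have q3 : V ≤ Q := fun v hv => q1 (q2 v hv) (q2 _ (inv_mem hv))
  obtain ⟨n, a1, a2⟩ : ∃ n ∈ Q, X.Mon (τ n) (w0 Set.univ) :=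
    S.W1_induction (P := fun w => ∃ n ∈ Q, X.Mon (τ n) w) ⟨1, one_mem _, by simpa using X.mon_one⟩
      (fun w _ i _ ⟨n, a1, a2⟩ => by
        obtain ⟨m, b⟩ := L.exists_gn h c i
        exact ⟨n * m, mul_mem a1 (q1 (fun _ => L.gn_mul h c b) fun _ => L.gn_mul h c ⟨inv_mem b.1,
          by simpa using b.2.1, by simpa [w1_inv] using b.2.2.inv⟩), by simpa using a2.mul b.2.2⟩)
      (S.w0_mem_W1 (by simp))
  have q4 : Γ ≤ Q.map τ := hg.trans (sup_le (fun u hu => (L.lift u hu.1 hu.2).imp fun v hv => ⟨q3 hv.1, hv.2⟩)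
    fun u hu => by
      obtain ⟨v, b1, b2⟩ := L.lift _ ((w0_UP a2 u).2 hu.1) (mul_mem (mul_mem (L.mem n) hu.2) (inv_mem (L.mem n)))
      exact ⟨_, mul_mem (mul_mem (inv_mem a1) (q3 b1)) a1, by simp [b2, mul_assoc]⟩)
  rw [Schur.commutator_eq_of_forall_mul_central Q fun x => by
    obtain ⟨y, b1, b2⟩ := q4 (L.mem x)
    exact ⟨y, b1, y⁻¹ * x, L.cent (by simp [MonoidHom.mem_ker, b2]), by simp⟩] at h2
  obtain ⟨v, b1, m, b2, v', b3, e⟩ := ((Subgroup.commutator_le.2 fun a ha b hb =>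
    mul_mem (mul_mem (mul_mem ha hb) (inv_mem ha)) (inv_mem hb) : ⁅Q, Q⁆ ≤ Q) h2 1).2
    ⟨1, one_mem _, 1, ⟨1, one_mem _, [], by simp, by simp⟩, 1, one_mem _, by simp⟩
  rw [mul_one] at e
  have b4 : τ m ∈ X.UP := by
    rw [show m = v⁻¹ * z * v'⁻¹ by simp [e, mul_assoc]]
    simpa [h1] using mul_mem (inv_mem (L.up v b1)) (inv_mem (L.up v' b3))
  have b5 := c.eq_one_of_UP_H b4 (c.mem_H_of_B_N (X.UP_le_B b4) b2.mon.1)
  have b6 := L.inj _ (mul_mem b1 b3) (by simpa [e, b5] using h1)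
  rw [Subgroup.mem_center_iff.1 (L.cent b5), mul_assoc, b6, mul_one] at e
  obtain ⟨t, c1, l, c2, rfl⟩ := b2
  rw [e]
  refine mul_mem c1 (L.pr_mem_T h c _ l le_rfl c2 ?_)
  rw [map_mul, mul_eq_one_iff_inv_eq] at b5
  exact b5 ▸ mon_of_mem_H (inv_mem (Tt_le c1))

variable (τ V S) in
omit h c L in
/-- The rank one torus lifts. -/
def TorOk (m : X.Mult) (j : Sm D) : Prop := ∀ t ∈ Lh X τ V (S.orb j), τ t ∈ X.H →
  (∃ a, (∀ i ∉ S.orb j, a i = 1) ∧ τ t = m.tor a) ∧ (τ t = 1 → t = 1)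

omit h c L in
theorem eq_one_of_torOk {m : X.Mult} (hi : Function.Injective m.tor) {R : List (Sm D)} (hR : S.Reps R)
    (hp : R.Pairwise fun j k => k ∉ S.orb j) (hT : ∀ j ∈ R, TorOk τ V S m j) {z : E} (h1 : z ∈ Tt X τ V S)
    (h2 : τ z = 1) : z = 1 := by
  have key : ∀ R : List (Sm D), (R.Pairwise fun j k => k ∉ S.orb j) → (∀ j ∈ R, TorOk τ V S m j) →
      ∀ z ∈ R.foldr (fun j A => (Lh X τ V (S.orb j) ⊓ X.H.comap τ) ⊔ A) ⊥,
        (∃ a, (∀ i, (∀ j ∈ R, i ∉ S.orb j) → a i = 1) ∧ τ z = m.tor a) ∧ (τ z = 1 → z = 1) := fun R hp hT => by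
    induction R with
    | nil => rintro _ rfl; exact ⟨⟨1, by simp, by simp⟩, by simp⟩
    | cons j R ih =>
      obtain ⟨a1, a2⟩ := List.pairwise_cons.1 hp
      replace ih := ih a2 fun k hk => hT k (.tail _ hk)
      intro z hz
      obtain ⟨t, b1, y, b2, rfl⟩ := (mem_sup_of_norm (Subgroup.le_normalizer_iff.2 fun y hy t ht => by
        obtain ⟨⟨a, -, e⟩, -⟩ := ih y hy
        have : τ y ∈ X.H := e ▸ m.tor_mem_H a
        exact ⟨conj_Lh_H this ht.1, by simpa using mul_mem (mul_mem this ht.2) (inv_mem this)⟩)).1 hz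
      obtain ⟨⟨a, c1, c2⟩, c3⟩ := hT j (.head _) t b1.1 b1.2
      obtain ⟨⟨b, d1, d2⟩, d3⟩ := ih y b2
      refine ⟨⟨a * b, fun i hi => by simp [c1 i (hi j (.head _)), d1 i fun k hk => hi k (.tail _ hk)],
        by simp [c2, d2]⟩, fun e => ?_⟩
      have e1 : a * b = 1 := hi (by simpa [c2, d2] using e)
      have e2 : a = 1 := funext fun i => by
        by_cases e : i ∈ S.orb j
        · simpa [d1 i fun k hk e' => a1 k hk (e.trans e'.symm)] using congrFun e1 i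
        · exact c1 i e
      rw [c3 (by simp [c2, e2]), one_mul] at e ⊢
      exact d3 e
  refine (key R hp hT z (iSup_le (hR.forall_orb (P := fun J => Lh X τ V J ⊓ X.H.comap τ ≤ _) fun j hj => ?_) h1)).2 h2
  clear hR hp hT
  induction hj with
  | head => exact le_sup_left
  | tail _ _ ih => exact ih.trans le_sup_right

omit h L in
theorem exists_PL [Finite E] [Finite K] (p : ℕ) [Fact p.Prime] [CharP K p] (h1 : ∀ g, τ g ∈ Γ)
    (h2 : ∀ y ∈ Γ, ∃ g, τ g = y) (h3 : τ.ker ≤ Subgroup.center E) (hp : ¬ p ∣ Nat.card τ.ker) :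
    ∃ V, PL X Γ τ V := by
  set f := τ.comp (X.UP.comap τ).subtype
  have a1 : IsPGroup p f.range := (isPGroup_UP c p).to_le (by rintro _ ⟨x, rfl⟩; exact x.2)
  have a2 : (Nat.card τ.ker).Coprime p := ((Nat.Prime.coprime_iff_not_dvd Fact.out).2 hp).symm
  have : Finite f.range := .of_surjective _ f.rangeRestrict_surjective
  obtain ⟨n, hn⟩ := a1.exists_card_eq
  obtain ⟨W, hW⟩ := Subgroup.exists_right_complement'_of_coprime (N := f.ker) (by
    rw [Subgroup.index_ker, hn, ← MonoidHom.comap_ker, Subgroup.comap_subtype,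
      Nat.card_congr (Subgroup.subgroupOfEquivOfLe fun x hx => by simp [show τ x = 1 from hx]).toEquiv]
    exact a2.pow_right n)
  have a3 : ∀ x : X.UP.comap τ, x ∈ W ↔ x ^ p ^ n = 1 := fun x => ⟨fun e => by
    rw [← hn, ← Subgroup.index_ker, hW.symm.index_eq_card]
    exact congrArg Subtype.val (pow_card_eq_one' (x := (⟨x, e⟩ : W))), fun e => by
    obtain ⟨⟨z, w⟩, rfl⟩ := hW.2 x
    have b1 : Commute (z : X.UP.comap τ) w := Subtype.ext (Subgroup.mem_center_iff.1 (h3 z.2) _).symm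
    rw [b1.mul_pow, mul_eq_one_iff_eq_inv] at e
    have b2 := Subgroup.disjoint_def.1 hW.disjoint (pow_mem z.2 _) (e ▸ inv_mem (pow_mem w.2 _))
    have b3 : (⟨_, z.2⟩ : τ.ker) = 1 := (powCoprime (a2.pow_right n)).injective
      (Subtype.ext (by simpa using congrArg Subtype.val b2))
    simp [show z.1 = 1 from Subtype.ext (Subtype.mk.inj b3)]⟩
  refine ⟨W.map (Subgroup.subtype _), h1, h2, h3, ?_, fun u hu hu' => ?_, ?_, ?_⟩
  · rintro _ ⟨v, -, rfl⟩; exact v.2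
  · obtain ⟨g, rfl⟩ := h2 u hu'
    obtain ⟨⟨z, w⟩, e⟩ := hW.2 ⟨g, hu⟩
    exact ⟨_, ⟨w, w.2, rfl⟩, by simpa [f, show τ z = 1 from z.2] using congrArg f e⟩
  · rintro g _ ⟨v, hv, rfl⟩ e
    exact ⟨⟨_, e⟩, (a3 _).2 (Subtype.ext (by simpa using congrArg Subtype.val ((a3 v).1 hv))), rfl⟩
  · rintro _ ⟨v, hv, rfl⟩ e
    exact congrArg Subtype.val (Subgroup.disjoint_def.1 hW.disjoint e hv)

omit [Conn D] c in
theorem PL.exists_pe {y : G} (h1 : y ∈ X.UN) (h2 : y ∈ Γ) : ∃ g, Pe V g ∧ τ g = y := by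
  obtain ⟨n, -, a2, a3⟩ := h.exists_N0
  obtain ⟨n, rfl⟩ := L.surj n a3
  obtain ⟨v, b1, b2⟩ := L.lift _ ((w0_UP a2 y).2 h1) (mul_mem (mul_mem a3 h2) (inv_mem a3))
  exact ⟨n⁻¹ * v * n, ⟨n, by simpa [mul_assoc]⟩, by simp [b2, mul_assoc]⟩

omit [Conn D] c in
theorem PL.pe_mul {g g' : E} (h1 : Pe V g) (h2 : Pe V g') (h3 : τ g ∈ X.UN) (h4 : τ g' ∈ X.UN) : Pe V (g * g') := by
  obtain ⟨n, -, a2, a3⟩ := h.exists_N0
  obtain ⟨n, rfl⟩ := L.surj n a3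
  exact ⟨n, by simpa [mul_assoc] using (mul_mem (L.mem_V (h1.conj n) (by simpa using (w0_UP a2 _).2 h3))
    (L.mem_V (h2.conj n) (by simpa using (w0_UP a2 _).2 h4)))⟩

open Cfsg.Agent.Classical in
theorem PL.torOk_LN {F : Type*} [Field F] [Finite F] {l : List (Sm D × (F →+* K))} {i : Sm D} (N : LN X S Γ i l)
    {m : X.Mult} (hi : Function.Injective m.tor) (hl : ∀ p ∈ l, p.1 ∈ S.orb i) : TorOk τ V S m i := by
  have N' := N.node h c
  choose e e1 e2 using fun t => L.lift _ (X.U_mono (fun _ h => And.left h) (N.e_mem t)) (N.mem_e t)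
  choose f f1 f2 using fun t => L.exists_pe h (X.U_mono (fun _ h => And.left h) (N.f_mem t)) (N.mem_f t)
  have a1 : ∀ t, τ (e t * f (-t⁻¹) * e t) = (l.map fun p => X.n (sm p.1) (p.2 t)).prod := fun t => by
    rw [← N.orth.nE, map_mul, map_mul, e2, f2]; rfl
  have x1 : ∀ (i : Sm D) t, X.x (sm i) t ∈ X.U {sm i, ng (sm i)} := fun i t => X.x_mem_U (by simp) t
  have x2 : ∀ (i : Sm D) t, X.x (ng (sm i)) t ∈ X.U {sm i, ng (sm i)} := fun i t => X.x_mem_U (by simp) t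
  have x3 : ∀ (i : Sm D) t, X.n (sm i) t ∈ X.U {sm i, ng (sm i)} := fun i t =>
    mul_mem (mul_mem (x1 _ _) (x2 _ _)) (x1 _ _)
  let Y : R1 F E := ⟨e, f, fun t u => L.eq_of_pe (.of_mem (e1 _)) (.of_mem (mul_mem (e1 _) (e1 _))) (by
      rw [map_mul, e2, e2, e2]; exact congrArg Subtype.val (N'.e_add t u)),
    fun t u => L.eq_of_pe (f1 _) (L.pe_mul h (f1 _) (f1 _) (f2 t ▸ X.U_mono (fun _ h => And.left h) (N.f_mem t))
      (f2 u ▸ X.U_mono (fun _ h => And.left h) (N.f_mem u))) (by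
      rw [map_mul, f2, f2, f2]; exact congrArg Subtype.val (N'.f_add t u)),
    fun t ht u => mul_inv_eq_iff_eq_mul.1 (L.eq_of_pe ((Pe.of_mem (e1 u)).conj _) (f1 _) (by
      rw [map_mul, map_mul, map_inv, a1, e2, f2, mul_inv_eq_iff_eq_mul, eL_eq, fL_eq,
        N.orth.mul (fun _ => x3 _ _) fun _ => x1 _ _, N.orth.mul (fun _ => x2 _ _) fun _ => x3 _ _]
      exact congrArg _ (List.map_congr_left fun p _ => by rw [Mult.n_x X _ (by simpa)]; simp))),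
    fun t ht u => mul_inv_eq_iff_eq_mul.1 (L.eq_of_pe ((f1 u).conj _) (.of_mem (e1 _)) (by
      rw [map_mul, map_mul, map_inv, a1, e2, f2, mul_inv_eq_iff_eq_mul, eL_eq, fL_eq,
        N.orth.mul (fun _ => x3 _ _) fun _ => x2 _ _, N.orth.mul (fun _ => x1 _ _) fun _ => x3 _ _]
      exact congrArg _ (List.map_congr_left fun p _ => by rw [Mult.n_y X _ (by simpa)]; simp)))⟩
  obtain ⟨φ, hφ, hφ'⟩ := Y.exists_hom
  have a2 : ∀ a : Fˣ, τ (φ (dSL a)) = m.tor (l.map fun p => Pi.mulSingle p.1 (Units.map (p.2 : F →* K) a)).prod := fun a => by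
    rw [Ree.dSL_eq, Ree.wSL_eq]
    have := a1 (-1)
    rw [inv_neg, inv_one, neg_neg] at this
    simp only [map_mul φ, hφ, hφ', Y]
    rw [map_mul, a1, this, N.orth.mul (fun _ => x3 _ _) fun _ => x3 _ _, map_list_prod, List.map_map]
    exact congrArg _ (List.map_congr_left fun p _ => by simp [m.tor_single, Sys.h])
  intro t ht hH
  obtain ⟨g, rfl⟩ : t ∈ φ.range := (Subgroup.closure_le _).2 (fun g hg => hg.2.elim (fun e => by
    obtain ⟨t, e⟩ := (N'.mem_e ⟨_, L.mem g⟩).1 e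
    exact ⟨_, (hφ t).trans (L.eq_of_pe (.of_mem (e1 t)) hg.1 ((e2 t).trans (congrArg Subtype.val e).symm))⟩) fun e => by
    obtain ⟨t, e⟩ := (N'.mem_f ⟨_, L.mem g⟩).1 e
    exact ⟨_, (hφ' t).trans (L.eq_of_pe (f1 t) hg.1 ((f2 t).trans (congrArg Subtype.val e).symm))⟩) ht
  have a3 : ∀ t, τ (φ (uSL t)) ∈ X.UP := fun t => L.up _ (hφ t ▸ e1 t)
  have hd := g.det_coe
  rw [Matrix.det_fin_two] at hd
  by_cases h0 : g.1 1 0 = 0
  · have h1 : g.1 0 0 ≠ 0 := fun e => by simp [e, h0] at hd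
    have h2 : g = uSL (g.1 0 1 * g.1 0 0) * dSL (.mk0 _ h1) := by
      ext i j; fin_cases i <;> fin_cases j <;> simp [h0, h1]
      rw [h0] at hd; field_simp; linear_combination hd
    generalize g.1 0 1 * g.1 0 0 = b, Units.mk0 _ h1 = a at h2
    subst h2
    have h3 := c.eq_one_of_UP_H (a3 b) (by
      simpa [a2] using mul_mem hH (inv_mem (m.tor_mem_H (l.map fun p => Pi.mulSingle p.1 (Units.map (p.2 : F →* K) a)).prod)))
    rw [map_mul, L.inj _ (hφ b ▸ e1 b) h3, one_mul, a2]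
    refine ⟨⟨_, fun j hj => ?_, rfl⟩, fun e => ?_⟩
    · rw [Pi.list_prod_apply, List.map_map]
      exact List.prod_eq_one (List.forall_mem_map.2 fun p hp => Pi.mulSingle_eq_of_ne (ne_of_mem_of_not_mem (hl p hp) hj).symm _)
    obtain ⟨p, l, rfl⟩ := List.exists_cons_of_ne_nil N.ne
    have h4 := congrFun (hi (e.trans (map_one _).symm)) p.1
    rw [List.map_cons, List.prod_cons, Pi.mul_apply, Pi.mulSingle_eq_same, Pi.list_prod_apply, List.map_map,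
      List.prod_eq_one (List.forall_mem_map.2 fun q hq => Pi.mulSingle_eq_of_ne (fun e => by
        have := ((List.pairwise_cons.1 N.orth).1 _ (List.mem_map_of_mem hq)).1
        rw [← e, ← A_sm, A_self] at this; exact absurd this (by decide)) _), mul_one] at h4
    rw [show a = 1 from Units.map_injective p.2.injective (h4.trans (map_one _).symm)]
    exact (congrArg φ (map_one (dSLHom F))).trans (map_one _)
  · have h2 : g = uSL (g.1 0 0 / g.1 1 0) * (uSL (-(g.1 1 0)⁻¹) * lSL (-(-(g.1 1 0)⁻¹)⁻¹) * uSL (-(g.1 1 0)⁻¹)) *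
        uSL (g.1 1 1 / g.1 1 0) := by
      ext i j; fin_cases i <;> fin_cases j <;> simp [h0] <;> field_simp
      linear_combination -hd
    obtain ⟨-, b2⟩ := mon_prod (X := X) l (t := -(g.1 1 0)⁻¹) (by simpa)
    rw [← N.w1, ← a1] at b2
    refine absurd (c.eq_one_of_mon_B b2 ?_) (S.w1_ne_one i)
    have := mul_mem (mul_mem (inv_mem (X.UP_le_B (a3 (g.1 0 0 / g.1 1 0)))) (X.H_le_B hH))
      (inv_mem (X.UP_le_B (a3 (g.1 1 1 / g.1 1 0))))
    nth_rewrite 3 [h2] at this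
    simpa [hφ, hφ', Y, mul_assoc] using this

end Cfsg.Agent.TwM
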