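import Cfsg.Agent.TwM.Chain
import Cfsg.Agent.TwM.PP
import Cfsg.Agent.Chev.Syl
import Mathlib.GroupTheory.Transfer
/-! The filtration of the unipotent subgroup of a twisted group by orbits of roots (`Rk`, `Rk.ch`). -/

set_option autoImplicit false

namespace Cfsg.Agent.TwM

open Cfsg.Lie Cfsg.Agent.Chev Cfsg.Agent.Chev.Sys Cfsg.Agent.ChAut
open scoped commutatorElement

universe u

variable {D : ChevalleyDatum} [Good D] {K : Type*} [Field K] {G E : Type*} [Group G] [Group E]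

/-- An ordering of the orbits of positive roots. -/
structure Rk (S : Sym D) (p : ℕ) (rk : ℕ → ℕ) (rep : ℕ → Rt D) (n : ℕ) : Prop where
  ht : ∀ a k : Rt D, Pos a → Pos k → rk k ≤ rk a → ht k < 2 * ht a
  cm : ∀ r s : Rt D, Pos r → Pos s → ∀ c ∈ nrm p (D.commTerms r s), rk r < rk c.1 ∧ rk s < rk c.1
  inv : ∀ r, Pos r → rk (S.ρ r) = rk r
  le : ∀ r : Rt D, Pos r → rk r ≤ n
  rp : ∀ k ≤ n, Pos (rep k) ∧ rk (rep k) = k
  orb : ∀ s : Rt D, Pos s → s = rep (rk s) ∨ s = S.ρ (rep (rk s)) ∨ s = S.ρ (S.ρ (rep (rk s)))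

theorem mem_nrm {p : ℕ} {L : List Tm} {c : Tm} (h : c ∈ nrm p L) : ∃ c' ∈ L, c'.1 = c.1 := by
  obtain ⟨c', h1, rfl⟩ := List.mem_map.1 (List.mem_filter.1 h).1
  exact ⟨c', h1, rfl⟩

theorem comb_of_mem_nrm {p : ℕ} {r s : Rt D} {c : Tm} (h : c ∈ nrm p (D.commTerms r s)) :
    ∃ h : c.1 < D.nroots, Comb r s ⟨c.1, h⟩ := by
  obtain ⟨c', h1, e⟩ := mem_nrm h
  exact e ▸ comb_of_mem_commW (t := (0 : ℤ)) (u := 0) (List.mem_map_of_mem h1)

theorem Rk.of_ht {S : Sym D} (p : ℕ) {rk : ℕ → ℕ} {rep : ℕ → Rt D} {n : ℕ}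
    (h : (∀ a k : Rt D, Pos a → Pos k → rk k ≤ rk a → Chev.ht k ≤ Chev.ht a) ∧ (∀ r, Pos r → rk (S.ρ r) = rk r ∧ rk r ≤ n ∧
      (r = rep (rk r) ∨ r = S.ρ (rep (rk r)) ∨ r = S.ρ (S.ρ (rep (rk r))))) ∧
      ∀ k ≤ n, Pos (rep k) ∧ rk (rep k) = k) : Rk S p rk rep n where
  ht a k h1 h2 h3 := by have := h.1 a k h1 h2 h3; have := pos_iff_ht.1 h1; omega
  cm r s h1 h2 c hc := by
    obtain ⟨h3, h4⟩ := comb_of_mem_nrm hc
    have a1 := pos_iff_ht.1 h1
    have a2 := pos_iff_ht.1 h2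
    have := h4.le (htF D) (htF_rtv r ▸ a1.le) (htF_rtv s ▸ a2.le)
    simp only [htF_rtv] at this
    exact ⟨lt_of_not_ge fun e => by have := h.1 _ _ h1 (h4.pos h1 h2) e; omega,
      lt_of_not_ge fun e => by have := h.1 _ _ h2 (h4.pos h1 h2) e; omega⟩
  inv r hr := (h.2.1 r hr).1
  le r hr := (h.2.1 r hr).2.1
  rp := h.2.2
  orb r hr := (h.2.1 r hr).2.2

theorem nilp_single {r : Rt D} (h : Pos r) : Nilp (htF D) {r} :=
  ⟨fun s hs => nilp_Pos.pos s (hs ▸ h), by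
    rintro _ rfl _ rfl k ⟨i, j, h1, h2, e⟩
    refine (eq_or_eq_ng_of_smul_eq one_ne_zero (by rw [one_smul, e, ← add_smul])).resolve_right fun e' => ?_
    exact pos_ng_iff.1 (e' ▸ Comb.pos ⟨i, j, h1, h2, e⟩ h h) h⟩

/-- The positive roots of rank at least `k`. -/
def AS (rk : ℕ → ℕ) (k : ℕ) : Set (Rt D) := {r | Pos r ∧ k ≤ rk r}

theorem AS_anti {rk : ℕ → ℕ} {k : ℕ} : (AS rk (k + 1) : Set (Rt D)) ⊆ AS rk k := fun _ h => ⟨h.1, Nat.le_of_succ_le h.2⟩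

/-- The coefficient of `u` at the root `r` is `t`. -/
def Co (X : Sys D K G) (rk : ℕ → ℕ) (r : Rt D) (k : ℕ) (u : G) (t : K) : Prop :=
  (X.x r t)⁻¹ * u ∈ X.U (AS rk k \ {r})

/-- The coefficient at the representative of rank `k`. -/
noncomputable def cf (X : Sys D K G) (rk : ℕ → ℕ) (rep : ℕ → Rt D) (n : ℕ) (τ : E →* G) (k : ℕ) (g : E) : K :=
  Classical.epsilon (Co X rk (rep (min k n)) k (τ g))

/-- The filtration of the extension. -/
def AA (X : Sys D K G) (rk : ℕ → ℕ) (τ : E →* G) (k : ℕ) : Subgroup E := (X.U (AS rk k)).comap τ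

variable {X : Sys D K G} {S : Sym D} {p : ℕ} {rk : ℕ → ℕ} {rep : ℕ → Rt D} {n k : ℕ} {Γ : Subgroup G} {τ : E →* G}

theorem U_AS_zero : X.U (AS rk 0) = X.UP := congrArg X.U (Set.ext fun _ => and_iff_left (Nat.zero_le _))

namespace Rk

variable (R : Rk S p rk rep n) (hp : (p : K) = 0)
include R

theorem rp' (k : ℕ) : Pos (rep (min k n)) ∧ AS rk (k + 1) ⊆ AS rk k \ {rep (min k n)} :=
  ⟨(R.rp _ (min_le_right _ _)).1, fun r hr => ⟨AS_anti hr, by
    rintro rfl; have := (R.rp _ (min_le_right k n)).2; have := hr.2; omega⟩⟩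

theorem nilp {T : Set (Rt D)} (h1 : AS rk (k + 1) ⊆ T) (h2 : T ⊆ AS rk k) : Nilp (htF D) T :=
  ⟨fun r hr => nilp_Pos.pos r (h2 hr).1, fun a ha b hb c hc => h1 ⟨hc.pos (h2 ha).1 (h2 hb).1, lt_of_not_ge fun e => by
    have := hc.le (htF D) (nilp_Pos.pos a (h2 ha).1).le (nilp_Pos.pos b (h2 hb).1).le
    have := R.ht _ _ (h2 ha).1 (hc.pos (h2 ha).1 (h2 hb).1) (e.trans (h2 ha).2)
    have := R.ht _ _ (h2 hb).1 (hc.pos (h2 ha).1 (h2 hb).1) (e.trans (h2 hb).2)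
    simp only [htF_rtv] at *
    omega⟩⟩

include hp

theorem comm_x {r s : Rt D} (h1 : Pos r) (h2 : Pos s) (h3 : k ≤ rk r ∨ k ≤ rk s) (t u : K) :
    (X.x s u)⁻¹ * (X.x r t)⁻¹ * X.x s u * X.x r t ∈ X.U (AS rk (k + 1)) := by
  by_cases h : s = r
  · subst h
    rw [← x_neg, ← x_neg, ← X.add, ← X.add, ← X.add, show -u + -t + u + t = 0 by ring, x_zero]
    exact one_mem _
  rw [mul_assoc, X.comm r s h (nilp_Pos.ne_ng h1 h2), show (X.x s u)⁻¹ * (X.x r t)⁻¹ * (X.x r t * X.x s u *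
    gword X.x (commW D r s t u)) = gword X.x (commW D r s t u) by group,
    show commW D r s t u = evT _ _ _ from rfl, ← gword_nrm X hp]
  refine X.gword_mem fun q hq _ => ?_
  obtain ⟨c, hc, rfl⟩ := List.mem_map.1 hq
  have := R.cm r s h1 h2 c hc
  exact ⟨(comb_of_mem_nrm hc).2.pos h1 h2, show k + 1 ≤ rk c.1 by omega⟩

theorem stab {T : Set (Rt D)} (h1 : AS rk (k + 1) ⊆ T) (h2 : T ⊆ AS rk k) : X.Stab T := by
  refine ⟨R.nilp h1 h2, U_le.mpr fun a ha t => ?_⟩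
  refine (?_ : X.U {a} ≤ _) (X.x_mem_U (Set.mem_singleton a) t)
  refine Subgroup.le_normalizer_closure_iff.mpr fun y hy z hz => ?_
  obtain ⟨t, rfl⟩ := mem_U_singleton.mp hy
  obtain ⟨s, hs, u, rfl⟩ := hz
  have h2 := mul_mem (X.x_mem_U hs u) (X.U_mono h1 (R.comm_x hp ha (h2 hs).1 (.inr (h2 hs).2) (-t) u))
  rw [x_neg, inv_inv] at h2
  simp only [← mul_assoc, mul_inv_cancel, one_mul] at h2
  exact h2

theorem comm {y z : G} (hy : y ∈ X.UP) (hz : z ∈ X.U (AS rk k)) : y⁻¹ * z⁻¹ * y * z ∈ X.U (AS rk (k + 1)) := by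
  have hn := (R.stab (X := X) hp (k := k + 1) AS_anti subset_rfl).norm
  refine U_induction (P := fun z => y⁻¹ * z⁻¹ * y * z ∈ X.U (AS rk (k + 1))) (by simp) ?_ hz
  intro s hs c z _ ih
  have h1 : y⁻¹ * (X.x s c)⁻¹ * y * X.x s c ∈ X.U (AS rk (k + 1)) := by
    refine U_induction (P := fun y => y⁻¹ * (X.x s c)⁻¹ * y * X.x s c ∈ X.U (AS rk (k + 1))) (by simp) ?_ hy
    intro r hr t y _ ih
    convert mul_mem (conj_mem_of_norm' (hn (X.x_mem_U hr t)) ih) (R.comm_x hp hs.1 hr (.inl hs.2) c t) using 1; group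
  convert mul_mem h1 (conj_mem_of_norm' (hn (X.x_mem_U hs.1 c)) ih) using 1; group

section
variable {r : Rt D} (h : Pos r ∧ AS rk (k + 1) ⊆ AS rk k \ {r})
include h

theorem co_mul {u u' : G} {t t' : K} (h1 : Co X rk r k u t) (h2 : Co X rk r k u' t') :
    Co X rk r k (u * u') (t + t') := by
  have := mul_mem (conj_mem_of_norm' ((R.stab hp h.2 Set.sdiff_subset).norm (X.x_mem_U h.1 t')) h1) h2
  rw [Co, X.add]
  convert this using 1; group

theorem exists_co {u : G} (hu : u ∈ X.U (AS rk k)) : ∃ t, Co X rk r k u t := by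
  refine U_induction (P := fun u => ∃ t, Co X rk r k u t) ⟨0, by simp [Co]⟩ (fun s hs t y _ ⟨t', ih⟩ => ?_) hu
  by_cases e : s = r
  · exact ⟨_, R.co_mul hp h ih (t' := t) (by simp [Co, e])⟩
  · exact ⟨_, R.co_mul hp h ih (t' := 0) (by simpa [Co] using X.x_mem_U (S := AS rk k \ {r}) ⟨hs, e⟩ t)⟩

omit hp in
theorem co_unique (c : X.Cover) {u : G} {t t' : K} (h1 : Co X rk r k u t) (h2 : Co X rk r k u t') : t = t' := by
  have h3 := mul_mem h1 (inv_mem h2)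
  rw [show (X.x r t)⁻¹ * u * ((X.x r t')⁻¹ * u)⁻¹ = X.x r (-t + t') by rw [X.add, x_neg]; group] at h3
  have h4 := (c.U_inf_U (R.nilp h.2 Set.sdiff_subset) (nilp_single h.1)).le ⟨h3, X.x_mem_U (Set.mem_singleton r) _⟩
  rw [Set.sdiff_inter_self, U_empty] at h4
  exact neg_add_eq_zero.1 (c.x_eq_one h4)

end

theorem cf_spec {g : E} (h : g ∈ AA X rk τ k) : Co X rk (rep (min k n)) k (τ g) (cf X rk rep n τ k g) :=
  Classical.epsilon_spec (R.exists_co hp (R.rp' k) h)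

omit hp in
theorem cf_eq (c : X.Cover) {g : E} {t : K} (h : Co X rk (rep (min k n)) k (τ g) t) : cf X rk rep n τ k g = t :=
  R.co_unique (R.rp' k) c (Classical.epsilon_spec ⟨t, h⟩) h

omit hp in
theorem co_σ (α : X.Aut S) {r : Rt D} {u : G} {t : K} (h : Co X rk r k u t) :
    Co X rk (S.ρ r) k (α.σ u) (α.a r t) := by
  rw [Co, ← α.σ_x, ← map_inv, ← map_mul]
  exact α.σ_mem_U (T := AS rk k \ {r}) (T' := AS rk k \ {S.ρ r}) (fun s hs =>
    ⟨⟨S.pos_ρ.2 hs.1.1, (R.inv s hs.1.1).symm ▸ hs.1.2⟩, S.ρ.injective.ne hs.2⟩) h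

variable [Conn D] (c : X.Cover) (m : X.Mult)
include c

theorem ac_tor {g : E} {a : Sm D → Kˣ} (h : τ g = m.tor a) (k : ℕ) :
    Ac (AA X rk τ) (cf X rk rep n τ) k g (chi a (rep (min k n))) := fun x hx => R.cf_eq c (by
  have := conj_mem_of_norm (X.H_le_normalizer_U _ (m.tor_mem_H a)) (R.cf_spec hp hx)
  rw [Co, ← m.tor_conj, map_mul, map_mul, map_inv, h]
  convert this using 1; group)

include m in
theorem ch {α : X.Aut S} (h : α.Gen Γ) (h1 : ∀ g, τ g ∈ X.B ⊓ Γ) (h2 : ∀ y ∈ X.B ⊓ Γ, ∃ g, τ g = y)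
    (h3 : τ.ker ≤ Subgroup.center E) : Ch τ.ker (X.H.comap τ) (AA X rk τ) (cf X rk rep n τ) where
  cent := h3
  normal k := ⟨fun x hx g => by
    simpa [AA] using conj_mem_of_norm ((R.stab hp AS_anti subset_rfl).normB (h1 g).1) hx⟩
  anti k := Subgroup.comap_mono (X.U_mono AS_anti)
  le k := Subgroup.ker_le_comap _ _
  comm k x hx y hy := by
    simpa [AA, commutatorElement_def] using R.comm hp (y := (τ x)⁻¹) (z := (τ y)⁻¹) (inv_mem (U_AS_zero (rk := rk) (X := X) ▸ hx))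
      (inv_mem hy)
  add k x hx y hy := R.cf_eq c (map_mul τ x y ▸ R.co_mul hp (R.rp' k) (R.cf_spec hp hx) (R.cf_spec hp hy))
  zero k x hx := by
    refine ⟨fun e => ?_, fun e => R.cf_eq c (by simpa [Co] using X.U_mono (R.rp' k).2 e)⟩
    have a0 := e ▸ R.cf_spec hp hx
    have a1 := R.co_σ α a0
    rw [Aut.mem_fix.1 (h.le (h1 x).2), map_zero] at a1
    have a2 := R.co_σ α a1
    rw [Aut.mem_fix.1 (h.le (h1 x).2), map_zero] at a2
    simp only [Co, x_zero, inv_one, one_mul] at a0 a1 a2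
    have b : ∀ {r}, Pos r ∧ AS rk (k + 1) ⊆ AS rk k \ {r} → Pos (S.ρ r) ∧ AS rk (k + 1) ⊆ AS rk k \ {S.ρ r} :=
      fun {r} h => ⟨S.pos_ρ.2 h.1, fun s hs => ⟨AS_anti hs, by
        rintro rfl; exact (h.2 ⟨h.1, R.inv r h.1 ▸ hs.2⟩).2 rfl⟩⟩
    have b0 := R.rp' k
    have b1 := R.nilp (b b0).2 Set.sdiff_subset
    have b2 := R.nilp (b (b b0)).2 Set.sdiff_subset
    have a3 := (c.U_inf_U (R.nilp b0.2 Set.sdiff_subset) (R.nilp (Set.subset_inter (b b0).2 (b (b b0)).2)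
      (Set.inter_subset_left.trans Set.sdiff_subset))).le ⟨a0, (c.U_inf_U b1 b2).le ⟨a1, a2⟩⟩
    refine X.U_mono (T := AS rk (k + 1)) (fun s hs => ⟨hs.1.1.1, lt_of_le_of_ne hs.1.1.2 ?_⟩) a3
    rintro rfl
    rw [min_eq_left (R.le s hs.1.1.1)] at hs
    exact (R.orb s hs.1.1.1).elim hs.1.2 fun e => e.elim hs.2.1.2 hs.2.2.2
  dec g := by
    obtain ⟨u, a1, z, a2, e⟩ := mem_B_iff.1 (h1 g).1
    obtain ⟨v, rfl⟩ := h2 u ⟨X.UP_le_B a1, (h.fold.stable u a1 z (X.H_le_N a2) 1 (mon_of_mem_H a2) 1 (one_mem _)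
      (by rw [mul_one, ← e]; exact (h1 g).2)).2.1⟩
    exact ⟨v, (U_AS_zero (rk := rk)).ge a1, v⁻¹ * g, by simpa [e], by simp⟩
  tc t ht t' ht' := by
    obtain ⟨a, e⟩ := m.exists_tor ht
    obtain ⟨a', e'⟩ := m.exists_tor ht'
    rw [MonoidHom.mem_ker, map_commutatorElement, e, e', ← map_commutatorElement,
      commutatorElement_eq_one_iff_mul_comm.2 (mul_comm _ _), map_one]

end Rk

theorem pow_index_mem (H : Subgroup E) [H.FiniteIndex] {z : E} (hz : z ∈ Subgroup.center E)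
    (hz' : z ∈ commutator E) : z ^ H.index ∈ ⁅H, H⁆ := by
  have h1 := Abelianization.commutator_subset_ker
    (MonoidHom.transfer (Abelianization.of : H →* Abelianization H)) hz'
  rw [MonoidHom.mem_ker, MonoidHom.transfer_eq_pow _ z (fun k g _ => by
    rw [mul_assoc, ← (Subgroup.mem_center_iff.1 (pow_mem hz k) g), inv_mul_cancel_left]),
    ← MonoidHom.mem_ker, Abelianization.ker_of] at h1
  rw [← Subgroup.map_subtype_commutator]
  exact ⟨_, h1, rfl⟩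

/-- A stem extension of a subgroup. -/
structure St (Γ : Subgroup G) (τ : E →* G) : Prop where
  mem : ∀ g, τ g ∈ Γ
  surj : ∀ y ∈ Γ, ∃ g, τ g = y
  cent : τ.ker ≤ Subgroup.center E
  comm : τ.ker ≤ commutator E

/-- The restriction to the Borel subgroup. -/
abbrev rB (X : Sys D K G) (τ : E →* G) : X.B.comap τ →* G := τ.comp (X.B.comap τ).subtype

theorem St.comm_eq_one (s : St Γ τ) {g y a b : E} (h1 : Commute (τ a) (τ y)) (h2 : Commute (τ b) (τ y))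
    (e : τ g = ⁅τ a, τ b⁆) : ⁅g, y⁆ = 1 := by
  let P : Subgroup E := (Subgroup.centralizer {τ y}).comap τ
  have c : Cc (MonoidHom.id E) P (Subgroup.zpowers y) := fun x hx z ⟨k, hk⟩ g =>
    Subgroup.mem_center_iff.1 (s.cent (by
      rw [MonoidHom.id_apply, MonoidHom.mem_ker, map_commutatorElement, ← hk, map_zpow,
        commutatorElement_eq_one_iff_commute]
      exact Commute.zpow_right (Subgroup.mem_centralizer_singleton_iff.1 hx) k)) g
  have h3 := c.comm (Subgroup.mem_centralizer_singleton_iff.2 h1) (Subgroup.mem_centralizer_singleton_iff.2 h2)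
    (Subgroup.mem_zpowers y)
  have h4 := Subgroup.mem_center_iff.1 (s.cent (show τ (⁅a, b⁆⁻¹ * g) = 1 by
    rw [map_mul, map_inv, e, map_commutatorElement, inv_mul_cancel]))
  rw [← mul_inv_cancel_left ⁅a, b⁆ g, commutatorElement_eq_one_iff_mul_comm, mul_assoc, ← h4, ← mul_assoc,
    commutatorElement_eq_one_iff_mul_comm.1 h3, mul_assoc]

variable [Conn D] {α : X.Aut S} (s : St Γ τ) (h : α.Gen Γ) (c : X.Cover) (m : X.Mult)
include s h c m

theorem St.ch (R : Rk S p rk rep n) (hp : (p : K) = 0) :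
    Ch (rB X τ).ker (X.H.comap (rB X τ)) (AA X rk (rB X τ)) (cf X rk rep n (rB X τ)) :=
  R.ch hp c m h (fun g => ⟨g.2, s.mem _⟩) (fun y hy => (s.surj y hy.2).elim fun g e => ⟨⟨g, (e ▸ hy.1 : τ g ∈ _)⟩, e⟩)
    fun _ hz => Subgroup.mem_center_iff.2 fun g => Subtype.ext (Subgroup.mem_center_iff.1 (s.cent hz) g)

omit h in
theorem St.ac (R : Rk S p rk rep n) (hp : (p : K) = 0) {a : Sm D → Kˣ} (ha : m.tor a ∈ Γ) :
    ∃ g ∈ X.H.comap (rB X τ), ∀ k ≤ n, Ac (AA X rk (rB X τ)) (cf X rk rep n (rB X τ)) k g (chi a (rep k)) := by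
  obtain ⟨g, e⟩ := s.surj _ ha
  exact ⟨⟨g, (e ▸ X.H_le_B (m.tor_mem_H a) : τ g ∈ _)⟩, (e ▸ m.tor_mem_H a : τ g ∈ _), fun k hk => by
    simpa only [min_eq_left hk] using R.ac_tor hp c m (τ := rB X τ) e k⟩

theorem St.ker_eq_bot [Finite E] [Finite K] [Fact p.Prime] [CharP K p] (hi : Function.Injective m.tor)
    {L : List (Sm D)} (hL : S.Reps L ∧ L.Pairwise fun j k => k ∉ S.orb j)
    (h1 : ¬ p ∣ Nat.card τ.ker → ∀ V, PL X Γ τ V → ∀ j ∈ L, TorOk τ V S m j)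
    (h2 : ∀ z ∈ (rB X τ).ker, z ∈ ⁅AA X rk (rB X τ) 0, AA X rk (rB X τ) 0⁆ → z = 1) : τ.ker = ⊥ := by
  have h3 : ¬ p ∣ Nat.card τ.ker := fun e => by
    obtain ⟨⟨z, hz⟩, e⟩ := exists_prime_orderOf_dvd_card' p e
    have : Finite Γ := .of_surjective (τ.codRestrict Γ s.mem) fun y => (s.surj y y.2).imp fun _ => Subtype.ext
    obtain ⟨Q⟩ : Nonempty (Sylow p E) := inferInstance
    obtain ⟨_, a1, a2⟩ := c.exists_conj_UP m p (fun y hy => (mem_B_iff_norm h.fold c hy).2)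
      (P := Q.1.map τ) (by rintro _ ⟨g, -, rfl⟩; exact s.mem g) (Q.isPGroup'.map τ)
    obtain ⟨g, rfl⟩ := s.surj _ a1
    have a3 : (g • Q : Sylow p E).1 ≤ X.UP.comap τ := by
      rintro _ ⟨y, hy, rfl⟩
      simpa using a2 _ ⟨y, hy, rfl⟩
    have a4 := pow_index_mem (X.UP.comap τ) (s.cent hz) (s.comm hz)
    generalize hk : (X.UP.comap τ).index = k at a4
    rw [show X.UP.comap τ = (AA X rk (rB X τ) 0).map (X.B.comap τ).subtype by
      rw [AA, U_AS_zero, ← Subgroup.comap_comap, ← Subgroup.subgroupOf, Subgroup.subgroupOf_map_subtype,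
        inf_eq_left.2 (Subgroup.comap_mono X.UP_le_B)], ← Subgroup.map_commutator] at a4
    obtain ⟨y, b1, b2⟩ := a4
    rw [h2 y (show τ y = 1 from (congrArg τ b2).trans (by rw [map_pow, hz, one_pow])) b1, map_one, eq_comm,
      ← orderOf_dvd_iff_pow_eq_one, ← Subgroup.orderOf_mk z hz, e, ← hk] at b2
    exact (g • Q).not_dvd_index (b2.trans (Subgroup.index_dvd_of_le a3))
  obtain ⟨V, hV⟩ := exists_PL c p s.mem s.surj s.cent h3
  exact eq_bot_iff.2 fun z hz => eq_one_of_torOk hi hL.1 hL.2 (h1 h3 V hV) (hV.mem_T h.fold c h.gen hz (s.comm hz)) hz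

omit s h c m [Conn D] [Good D] [Field K]

open Schur

theorem hasCyc_one {G : Type u} [Group G] [Finite G] {Γ : Subgroup G}
    (h : ∀ (E : Type u) [Group E] [Finite E] (τ : E →* G), St Γ τ → τ.ker = ⊥) : HasCyclicSchurMultiplier Γ 1 :=
  hasCyclicSchurMultiplier_one_iff.2 fun E _ _ σ hσ => by
    have e : (Γ.subtype.comp σ).ker = σ.ker := σ.ker_comp_of_injective _ Γ.subtype_injective
    exact e ▸ h E _ ⟨fun g => (σ g).2, fun y hy => (hσ.1 ⟨y, hy⟩).imp fun _ => congrArg Subtype.val, e ▸ hσ.2.1,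
      e ▸ hσ.2.2⟩

theorem hasSchur_of_cover {Γ G : Type u} [Group Γ] [Group G] [Finite Γ] (h : HasCyclicSchurMultiplier Γ 1)
    (hp : commutator Γ = ⊤) {σ : Γ →* G} (E : IsCentralExt σ) {A : Type*} [CommGroup A] (e : σ.ker ≃* A) :
    HasSchurMultiplier G A := by
  have hσ : IsStemExtension σ := ⟨E.surj, E.central, hp ▸ le_top⟩
  refine ⟨⟨_, inferInstance, inferInstance, σ, hσ, ⟨e⟩⟩, fun Δ _ _ τ hτ => ?_⟩
  have E' := isCentralExt_pullSnd (isCentralExt_of_stem hτ) σ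
  obtain ⟨s, hs⟩ := exists_section_of_perfect ⟨hp⟩ E' (mul_eq_bot_of_trivial h E')
  have hφ : τ.comp ((pullFst τ σ).comp s) = σ := by
    rw [← MonoidHom.comp_assoc, pull_comm, MonoidHom.comp_assoc, hs, MonoidHom.comp_id]
  exact ⟨(MulEquiv.subgroupCongr (mul_eq_ker_of_stem hτ)).toMonoidHom.comp ((mulMap E.surj hτ.2.1 hφ).comp
    (e.symm.trans (MulEquiv.subgroupCongr (mul_eq_ker_of_stem hσ).symm)).toMonoidHom),
    (MulEquiv.subgroupCongr (mul_eq_ker_of_stem hτ)).surjective.comp ((mulMap_surjective E.surj hτ.2.1 hφ).comp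
      (e.symm.trans (MulEquiv.subgroupCongr (mul_eq_ker_of_stem hσ).symm)).surjective)⟩

theorem hasCyc_map {D : ChevalleyDatum} [Good D] [Conn D] {K : Type u} [Field K] [Finite K]
    {Γ : Subgroup (D.SteinbergGroup K)} (h : HasCyclicSchurMultiplier Γ 1) (hp : commutator Γ = ⊤)
    (hi : Function.Injective (stS_mult D K).tor) {T : Subgroup (Sm D → Kˣ)}
    (hT : (stS D K).H ⊓ Γ = T.map (stS_mult D K).tor) {l n : ℕ} (hl : l.Prime)
    (hn : Nat.card ↥(zker D K ⊓ T) = l.gcd n) : HasCyclicSchurMultiplier (Γ.map (stCover D K).π) (l.gcd n) := by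
  have := Schur.finite_base_of_hasSchurMultiplier h
  have c := fun y => (stCover D K).mem_center_iff (stS_U_univ D K) (y := y)
  have m := stS_mult D K
  have e : ((stCover D K).π.subgroupMap Γ).ker.map Γ.subtype = (zker D K ⊓ T).map m.tor := by
    refine le_antisymm ?_ ?_
    · rintro _ ⟨y, hy, rfl⟩
      have h1 : (stCover D K).π y = 1 := congrArg Subtype.val hy
      obtain ⟨a, a1, a2⟩ := hT.le ⟨(stCover D K).mem_H_of_mem_center (stS_U_univ D K) ((c _).2 h1), y.2⟩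
      exact ⟨a, ⟨(m.π_tor_eq_one _).1 (a2 ▸ h1), a1⟩, a2⟩
    · rintro _ ⟨a, ha, rfl⟩
      exact ⟨⟨_, (hT.ge ⟨a, ha.2, rfl⟩).2⟩, Subtype.ext ((m.π_tor_eq_one _).2 ha.1), rfl⟩
  have e' : Nat.card ((stCover D K).π.subgroupMap Γ).ker = l.gcd n := by
    rw [← hn, ← Subgroup.card_map_of_injective Γ.subtype_injective, e, Subgroup.card_map_of_injective hi]
  have := Fact.mk hl
  exact hasSchur_of_cover h hp ⟨(stCover D K).π.subgroupMap_surjective Γ, fun y hy => Subgroup.mem_center_iff.2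
    fun z => Subtype.ext (Subgroup.mem_center_iff.1 ((c _).2 (congrArg Subtype.val hy)) z)⟩
    (e' ▸ (zmodCyclicMulEquiv (isCyclic_of_card_dvd_prime (p := l) (e' ▸ Nat.gcd_dvd_left l n))).symm)

end Cfsg.Agent.TwM
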