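import Cfsg.Agent.TwM.Tools
import Cfsg.Agent.ChAut.TwE6
import Cfsg.Agent.Chev.Semi
/-! The Schur multiplier of ²E₆(q), q ≥ 3. -/

set_option autoImplicit false

namespace Cfsg.Agent.TwM

open Cfsg.Lie Cfsg.Agent.Chev Cfsg.Agent.Chev.Sys Cfsg.Agent.ChAut

/-- The ranks of the roots. -/
def rkE6 : ℕ → ℕ := byt 0x1716151413141211100f0c0e0b08050213110d0f0a090c0904010b070603080600050302000000000000000000000000000000000000000000000000000000000000000000000000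

/-- The representatives of the orbits. -/
def repE6 (k : ℕ) : Rt chevE6 :=
  ⟨byt 0x474645423741363f343c35312d3330292c28262f25242e27 k % chevE6.nroots, Nat.mod_lt _ (by decide)⟩

theorem rkE6_ok (p : ℕ) : Rk symE6 p rkE6 repE6 23 := Rk.of_ht p (by decide +kernel)

/-- Exponents of torus elements. -/
def torE6 : List (List Z3) := [[0, (1, 1, 0)], [0, 0, 0, (1, 1, 0)], [(1, 0, 0), 0, 0, 0, 0, (0, 1, 0)],
  [0, (1, 1, 0), (1, 1, 0), (1, 1, 0), (1, 1, 0)], [(1, 0, 0), 0, (1, 0, 0), 0, (0, 1, 0), (0, 1, 0)],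
  [(1, 1, 0), 0, (1, 1, 0), (1, 1, 0), (1, 1, 0), (1, 1, 0)], [0, 0, (1, 0, 0), 0, (0, 1, 0)]]

/-- Small exponents. -/
abbrev NzE6 (e : Z3) : Prop := e ≠ 0 ∧ |e.1| ≤ 1 ∧ |e.2.1| ≤ 1 ∧ e.2.2 = 0

set_option synthInstance.maxSize 1000 in
theorem certE6 : ∀ k ≤ 23, (∃ M ∈ torE6, NzE6 (ex M (repE6 k))) ∧ ∀ j ≤ k, Ct symE6 twE6 repE6 torE6 (· = 0) NzE6
    (· ∈ [(1, 0, 0), (-1, 0, 0), (0, 1, 0), (0, -1, 0)]) (byt 0x2e1918000014001200120800000600000600000200000102)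
    (byt 0x464747000047004700464700004700004600004700004746) j k := by decide +kernel

theorem hasCycE6 {K : Type*} [Field K] [Finite K] {q : ℕ} (hq : IsPrimePow q) (hK : Nat.card K = q ^ 2) (h3 : q ≠ 2) :
    HasCyclicSchurMultiplier (twistedE6 K q) (Nat.gcd 3 (q + 1)) := by
  obtain ⟨φ, hφ, h2⟩ := exists_φE6 hq hK
  have h := genE6 hφ h2
  have h1 := hq.one_lt
  have hi := tor_injectiveE6 K
  obtain ⟨p, hp⟩ := CharP.exists K
  have := Fact.mk (CharP.char_is_prime K p)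
  have := finite_st (D := chevE6) (F := K)
  rw [twistedE6, ← (stCover chevE6 K).map_genW]
  refine hasCyc_map (hasCyc_one fun E _ _ τ s => ?_) (perfectE6 hφ h2 h1 hK) hi
    (twE6_ok.H_inf_eq symE6 symE6_ρ Nat.cast_zero φ hi h.le fun a => tor_memE6 hφ) Nat.prime_three (by
      rw [card_zker_fixTE6 hφ, card_pow_ker, hK, Nat.gcd_eq_left ((Nat.gcd_dvd_right _ _).trans
        (by rw [← one_pow 2, Nat.sq_sub_sq]; simp))])
  obtain ⟨N1, N2, N3, N4⟩ := lnE6 hφ h2 h1 hK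
  rw [twistedE6, ← (stCover chevE6 K).map_genW] at N1 N2 N3 N4
  have hψ : ∀ c : Kˣ, Units.map (φ : K →* K) c = c ^ q := fun c => Units.ext (hφ c)
  have hL : ∀ M ∈ torE6, ∀ a, (stS_mult chevE6 K).tor (fun i => pw (Units.map (φ : K →* K)) (M.getD i 0) a) ∈
      (stS chevE6 K).genW (e6Words K q) := fun M hM a => tor_memE6 hφ fun i => by
    obtain ⟨e, e'⟩ := (by decide +kernel : ∀ M ∈ torE6, ∀ i, M.getD (symE6.π i) 0 =
      ((M.getD i 0).2.1, (M.getD i 0).1, 0) ∧ (M.getD i 0).2.2 = 0) M hM i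
    simp only [e, e', pw_apply]
    simp [h2, twE6, mul_comm]
  obtain ⟨c, hc⟩ := exists_nz (K := K)
  have hN : ∀ e, NzE6 e → pw (Units.map (φ : K →* K)) e c ≠ 1 := fun e ⟨a1, a2, a3, a4⟩ => by
    rw [pw_eq hψ, Ne, hc, hK]
    exact nz_small h1 (by rw [a4, abs_zero]; push_cast; nlinarith [show (3 : ℤ) ≤ q by omega]) a1 ⟨a2, a3, by simp [a4]⟩
  refine s.ker_eq_bot (rk := rkE6) (p := p) h (stCover _ _) (stS_mult _ _) hi ⟨repsE6, by decide +kernel⟩ (fun _ V hV => ?_) fun z =>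
    (s.ch h (stCover _ _) (stS_mult _ _) (rkE6_ok p) (CharP.cast_eq_zero K p)).down ⟨_, (rkE6_ok p).cpl_top⟩
      (fun k hk j hj => s.pa_ct h (rkE6_ok p) (CharP.cast_eq_zero K p) (by rw [hK]; nlinarith [show 2 < q by omega]) hL (by simp [pw_apply]) hN
        (by
          simp only [List.forall_mem_cons, pw_apply, Units.ext_iff]; simp [map_eq_one_iff φ φ.injective]) (hj.trans hk) hk ((certE6 k hk).2 j hj))
      fun k hk _ => Ch.nz_cert (s.act (stCover _ _) (stS_mult _ _) (rkE6_ok p) (CharP.cast_eq_zero K p) hL) hk hN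
        (certE6 k hk).1
  simp only [List.forall_mem_cons, List.not_mem_nil, false_imp_iff, implies_true, and_true]
  exact ⟨hV.torOk_ad h _ (stS_U_univ _ _) hi N1 fun t =>
      ⟨mem_genW (.inl ⟨t, hφ t ▸ t.2, e6p2, by simp, rfl⟩), mem_genW (.inl ⟨t, hφ t ▸ t.2, e6m2, by simp, rfl⟩)⟩,
    hV.torOk_ad h _ (stS_U_univ _ _) hi N2 fun t =>
      ⟨mem_genW (.inl ⟨t, hφ t ▸ t.2, e6p4, by simp, rfl⟩), mem_genW (.inl ⟨t, hφ t ▸ t.2, e6m4, by simp, rfl⟩)⟩,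
    hV.torOk_ad h _ (stS_U_univ _ _) hi N3 fun t =>
      ⟨mem_genW (.inr ⟨t, (e6p3, e6p5), by simp, hφ t ▸ rfl⟩), mem_genW (.inr ⟨t, (e6m3, e6m5), by simp, hφ t ▸ rfl⟩)⟩,
    hV.torOk_ad h _ (stS_U_univ _ _) hi N4 fun t =>
      ⟨mem_genW (.inr ⟨t, (e6p1, e6p6), by simp, hφ t ▸ rfl⟩), mem_genW (.inr ⟨t, (e6m1, e6m6), by simp, hφ t ▸ rfl⟩)⟩⟩

end Cfsg.Agent.TwM
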