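import Cfsg.Agent.TwM.Word
import Cfsg.Agent.ChAut.TwD4
import Cfsg.Agent.Chev.Semi
/-! The Schur multiplier of ³D₄(q). -/

set_option autoImplicit false

namespace Cfsg.Agent.TwM

open Cfsg.Lie Cfsg.Agent.Chev Cfsg.Agent.Chev.Sys Cfsg.Agent.ChAut
open scoped commutatorElement

/-- The ranks of the roots. -/
def rkD4 : ℕ → ℕ := byt 0x50403030201030202000101000000000000000000000000

/-- The representatives of the orbits. -/
def repD4 (k : ℕ) : Rt chevD4 := ⟨byt 0x1716110f0c0e k % chevD4.nroots, Nat.mod_lt _ (by decide)⟩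

theorem rkD4_ok (p : ℕ) : Rk symD4 p rkD4 repD4 5 := Rk.of_ht p (by decide +kernel)

/-- Exponents of torus elements. -/
def torD4 : List (List Z3) := [[(1, 0, 0), 0, (0, 1, 0), (0, 0, 1)], [(1, 1, 1), (2, 2, 2), (1, 1, 1), (1, 1, 1)],
  [0, (1, 1, 1)], [(1, 0, 1), (1, 1, 1), (1, 1, 0), (0, 1, 1)], [(1, 0, 0), (1, 1, 1), (0, 1, 0), (0, 0, 1)]]

/-- Small exponents. -/
abbrev NzD4 (e : Z3) : Prop := e ≠ 0 ∧ |e.1| ≤ 1 ∧ |e.2.1| ≤ 1 ∧ |e.2.2| ≤ 1 ∨ e = (0, 0, 2) ∨ e = (0, 2, 0)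

/-- The certificates. -/
abbrev CtD4 (O N : Z3 → Prop) := Ct symD4 twD4 repD4 torD4 O N (· = (-1, 1, 1)) (byt 0xe0900000001) (byt 0x161700000017)

set_option synthInstance.maxSize 1000 in
theorem certD4 : ∀ k ≤ 5, (∃ M ∈ torD4, NzD4 (ex M (repD4 k))) ∧ ∀ j ≤ k, CtD4 (· = 0) NzD4 j k := by decide +kernel

set_option synthInstance.maxSize 1000 in
theorem certD4' : (∀ k ≤ 3, k ≠ 0 → ∃ M ∈ torD4, ex M (repD4 k) = (-1, 1, 1)) ∧ ∀ k ≤ 5, ∀ j ≤ k,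
    (j, k) ∈ [(0, 5), (4, 5), (0, 4), (1, 3), (2, 3), (1, 2)] ∨ CtD4 (7 ∣ vl 2 ·) (¬ 7 ∣ vl 2 ·) j k := by decide +kernel

variable {K : Type*} [Field K] {q : ℕ} {φ : K →+* K} (hφ : ∀ t, φ t = t ^ q) (h2 : ∀ t, φ (φ (φ t)) = t)
include h2

theorem bijD4 (e : Z3) (he : e = (-1, 1, 1)) (c : Kˣ) (h : pw (Units.map (φ : K →* K)) e c = 1) : c = 1 := by
  have h0 := c.ne_zero
  have h1 : φ c * φ (φ c) = c := by
    simpa [he, pw_apply, Units.ext_iff, inv_mul_eq_one₀ h0, eq_comm (a := (c : K))] using h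
  have h3 : φ (φ c) * c = φ c := by simpa [h2] using congrArg φ h1
  have h4 : φ (φ c) * φ (φ c) = 1 := mul_right_cancel₀ h0 (by linear_combination h1 + φ (φ c) * h3)
  have h5 : (c : K) * c = 1 := by simpa [h2] using congrArg φ h4
  rcases mul_self_eq_one_iff.1 h5 with e | e
  · exact Units.ext e
  · exact Units.ext (by simpa [e] using h1.symm.trans (by simp [e]))

include hφ

theorem tor_D4 : ∀ M ∈ torD4, ∀ a, (stS_mult chevD4 K).tor (fun i => pw (Units.map (φ : K →* K)) (M.getD i 0) a) ∈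
    (stS chevD4 K).genW (d4Words K q) := fun M hM a => tor_memD4 hφ fun i => by
  simp only [(by decide +kernel : ∀ M ∈ torD4, ∀ i, M.getD (symD4.π i) 0 =
    ((M.getD i 0).2.2, (M.getD i 0).1, (M.getD i 0).2.1)) M hM i, pw_apply]
  simp [h2, twD4, mul_comm, mul_left_comm]

variable [Finite K] {E : Type*} [Group E] {τ : E →* chevD4.SteinbergGroup K}
  (s : St ((stS chevD4 K).genW (d4Words K q)) τ)
include s

set_option synthInstance.maxSize 1000 in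
theorem inf_D4_two (hq : q = 2) (hK : Nat.card K = q ^ 3) (hp : ((2 : ℕ) : K) = 0) :
    ∀ z ∈ (rS τ).ker, z ∈ ⁅AB rkD4 τ 0, AB rkD4 τ 0⁆ → z = 1 := fun z => by
  subst hq
  have h := genD4 hφ h2
  have R := rkD4_ok 2
  have c := stCover chevD4 K
  have C : Ch _ (TB τ) (AB rkD4 τ) (cB rkD4 repD4 5 τ) := s.ch h c (stS_mult _ _) R hp
  have act := s.act c (stS_mult _ _) R hp (tor_D4 hφ h2)
  have f01 : ∀ t, φ t = t → t = 0 ∨ t = 1 := fun t e => by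
    rw [hφ, sq] at e; exact or_iff_not_imp_left.2 fun h => (mul_eq_left₀ h).1 e
  obtain ⟨c0, hc⟩ := exists_nz (K := K)
  have hN : ∀ e, pw (Units.map (φ : K →* K)) e c0 = 1 ↔ 7 ∣ vl 2 e := fun e => by
    rw [pw_eq (q := 2) fun c => Units.ext (hφ c), hc, hK]; rfl
  have ct : ∀ k ≤ 5, ∀ j ≤ k, (j, k) ∉ [(0, 5), (4, 5), (0, 4), (1, 3), (2, 3), (1, 2)] →
      Pa (rS τ).ker (AB rkD4 τ) j k := fun k hk j hj e => s.pa_ct h R hp (by rw [hK]; decide) (tor_D4 hφ h2)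
    (fun e => (hN e).2) (fun e => (hN e).not.2) (bijD4 h2) (hj.trans hk) hk ((certD4'.2 k hk j hj).resolve_left e)
  have tr := fun k (hk : k ≤ 3) h0 => Ch.tr_cert act (hk.trans (by decide)) (bijD4 h2) (certD4'.1 k hk h0)
  have nz : ∀ k ≤ 3, k ≠ 0 → ∃ h ∈ TB τ, ∃ l, l ≠ 1 ∧ Ac (AB rkD4 τ) (cB rkD4 repD4 5 τ) k h l := fun k hk h0 =>
    (tr k hk h0 c0 c0.ne_zero).imp fun _ a => ⟨a.1, _, fun e => by
      simpa [hK] using (hc 1).1 (by simpa using e), a.2⟩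
  have fx : ∀ k ∈ [0, 4, 5], k ≤ 5 ∧ symD4.ρ (repD4 k) = repD4 k ∧ twD4.Mv chevD4 (repD4 k) (repD4 k) 1 := by
    decide +kernel
  have v01 : ∀ k ∈ [0, 4, 5], ∀ g ∈ AB rkD4 τ k, g ∉ AB rkD4 τ (k + 1) → ∀ x ∈ AB rkD4 τ k, _ := fun k hk g =>
    C.two_val fun x hx => f01 _ (fix_of_mem h (fx k hk).2.2 (s.x_mem h c R hp (fx k hk).1 (fx k hk).2.1 hx))
  have gw1 : ∀ r : Rt chevD4, gw (stS chevD4 K) [r] = (stS chevD4 K).x r 1 := fun r => by simp [gw, xN_val]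
  have pw2 : ∀ j ∈ [0, 4, 5], ∀ a b l : List ℕ, Wd chevD4 twD4 a [1, 0] ∧ Wd chevD4 twD4 b [1, 0] ∧
      run chevD4 (a ++ b ++ a.reverse ++ b.reverse) l = [(repD4 j).1] ∧ (∀ y ∈ [a, b], run chevD4
        (y ++ [(repD4 5).1] ++ y.reverse ++ [(repD4 5).1].reverse) [3, 2, 2, 1, 1, 0, 0] = []) → Pa (rS τ).ker (AB rkD4 τ) j 5 :=
    fun j hj a b l e => s.pa_fix h c (stS_mult _ _) R hp (fx j hj).1 le_rfl (fx j hj).2.1 (fx 5 (by simp)).2.1
      fun t u ht hu => by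
        have k : ∀ y ∈ [a, b], Commute (gw (stS chevD4 K) y) ((stS chevD4 K).x (repD4 5) u) := fun y hy => by
          rcases f01 u (fix_of_mem h (fx 5 (by simp)).2.2 hu) with rfl | rfl
          · simp
          · rw [← gw1, ← commutatorElement_eq_one_iff_commute, gw_comm hp (e.2.2.2 y hy)]; rfl
        rcases f01 t (fix_of_mem h (fx j hj).2.2 ht) with rfl | rfl
        · exact ⟨1, one_mem _, 1, one_mem _, by simp⟩
        · exact ⟨_, e.1.mem h hp, _, e.2.1.mem h hp, by rw [gw_comm hp e.2.2.1, gw1], k a (by simp), k b (by simp)⟩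
  obtain ⟨g0, e0, m0, n0⟩ := s.lift_hd h hp R (k := 0) (w := [repD4 0]) (l := []) (by decide) (by decide +kernel)
  obtain ⟨g4, e4, m4, n4⟩ := s.lift_hd h hp R (k := 4) (w := [repD4 4]) (l := []) (by decide) (by decide +kernel)
  obtain ⟨g1, e1, m1, n1⟩ := s.lift_hd h hp R (k := 1) (w := [12, 18, 13]) (l := [1, 0]) (by decide) (by decide +kernel)
  obtain ⟨g3, e3, m3, n3⟩ := s.lift_hd h hp R (k := 3) (w := [17, 20, 21]) (l := [1, 0]) (by decide) (by decide +kernel)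
  have e6 : rS τ ⁅g0, g4⁆ = gw (stS chevD4 K) [repD4 5] := by
    rw [map_commutatorElement, e0, e4]; exact gw_comm hp (l := [1, 0, 1, 0]) (by decide +kernel)
  have c6 : Co (stS chevD4 K) rkD4 (repD4 5) 5 (rS τ ⁅g0, g4⁆) 1 := e6 ▸ Hd.co (by decide +kernel)
  have m6 := R.mem_of_co le_rfl c6
  have n6 := R.not_mem c le_rfl c6 one_ne_zero
  have hW := R.cpl_top (X := stS chevD4 K) (τ := rS τ)
  have p5 : ∀ j ≤ 5, Pr (AB rkD4 τ) ⊥ j 5 := fun j hj => (show Pa _ _ j 5 by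
    interval_cases j
    exacts [pw2 0 (by simp) [5, 10, 11] [15, 19, 16] [5, 4, 3, 2, 2, 5, 4, 3, 2, 1, 4, 3, 2, 1, 3, 2, 1, 0, 1, 0, 3, 2, 1]
      (by decide +kernel), ct 5 le_rfl 1 hj (by decide), ct 5 le_rfl 2 hj (by decide), ct 5 le_rfl 3 hj (by decide),
      pw2 4 (by simp) [12, 18, 13] [17, 20, 21] [5, 4, 3, 2, 4, 5, 4, 3, 2, 1, 2, 3, 4, 3, 2, 1, 0, 3, 2, 2, 1, 1, 0]
      (by decide +kernel), ct 5 le_rfl 5 hj (by decide)]) ⊥ hW
  have s6 : ⁅g0, g4⁆ * ⁅g0, g4⁆ = 1 := by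
    have a := (QuotientGroup.eq_one_iff _).1 (C.cm_of_pr hW p5 g0 m0 _ m6)
    rw [Subgroup.mem_bot, commutatorElement_eq_one_iff_mul_comm] at a
    rw [show ⁅g0, g4⁆ * ⁅g0, g4⁆ = ⁅g0 * g0, g4⁆ by
      nth_rw 1 [← mul_inv_cancel_right ⁅g0, g4⁆ g0, ← a]; simp only [commutatorElement_def]; group]
    refine Subtype.ext ((s.comm_congr (a' := 1) ?_ rfl).trans (by simp))
    rw [map_one, ← xN_sq (X := stS chevD4 K) hp (repD4 0), xN_val, ← gw1, ← e0, ← map_mul]; rfl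
  have t6 : ∀ t : E, τ t ∈ (stS chevD4 K).H → t * (⁅g0, g4⁆ :) * t⁻¹ = (⁅g0, g4⁆ :) := fun t ht => by
    have a : ∀ k ∈ [0, 4, 5], ∀ g, τ g = gw (stS chevD4 K) [repD4 k] → τ (t * g * t⁻¹) = τ g := fun k hk g e => by
      obtain ⟨a, e'⟩ := (stS_mult chevD4 K).exists_tor ht
      have b := s.mem (t * g * t⁻¹)
      rw [map_mul, map_mul, map_inv, e, e', gw1, Mult.tor_conj] at b ⊢
      rw [(f01 _ (fix_of_mem h (fx k hk).2.2 b)).resolve_left (by simp)]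
    exact (conjugate_commutatorElement _ _ _).trans (s.comm_congr (a 0 (by simp) _ e0) (a 4 (by simp) _ e4))
  obtain ⟨W6, hW6, d6⟩ := C.step2 hW p5 m6 n6 (v01 5 (by simp) _ m6 n6) s6 fun t ht =>
    Subtype.ext (commutatorElement_eq_one_iff_mul_comm.2 (mul_inv_eq_iff_eq_mul.1 (t6 t ht)))
  have := hW6.normal
  have p4 : ∀ j ≤ 4, Pr (AB rkD4 τ) W6 j 4 := fun j hj => by
    by_cases e : j = 0
    · exact e ▸ C.pr_two hW6 m0 (v01 0 (by simp) _ m0 n0) m4 (v01 4 (by simp) _ m4 n4) ((d6 _).2 (.inr (mul_inv_cancel _)))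
    · exact ct 4 (by decide) j hj (by simpa) W6 hW6
  generalize ⁅g0, g4⁆ = w6 at e6 m6 n6 s6 t6 d6
  obtain ⟨_, a1, a2, a3⟩ := h.fold.exN ⟨1, by decide⟩
  obtain ⟨n, rfl⟩ := s.surj _ a3
  have a4 := t6 (n * n) (c.mem_H_of_mon (map_mul τ n n ▸ mul_mem a1 a1) (by
    simpa only [map_mul, Sym.w1, w0_mul_self] using a2.mul a2))
  rw [w1D4_1] at a2
  have a5 := isReflD4.wd_smul (l := [1]) (by decide)
  obtain ⟨b, e5⟩ : ∃ b : Kˣ, τ (n * w6 * n⁻¹) = (stS chevD4 K).x (repD4 4) b := by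
    obtain ⟨b, -, hb⟩ := a2
    refine ⟨b (repD4 5), ?_⟩
    rw [map_mul, map_mul, map_inv, show τ w6 = _ from e6, gw1, hb, mul_one,
      show _ • _ = repD4 4 from Fin.ext ((a5 _).trans (by decide +kernel))]
  obtain ⟨w5, e5'⟩ : ∃ w5 : (stS chevD4 K).B.comap τ, w5 = n * w6 * n⁻¹ :=
    ⟨⟨_, (e5 ▸ (stS chevD4 K).UP_le_B (x_mem_U _ (R.rp 4 (by decide)).1 _) : τ _ ∈ _)⟩, rfl⟩
  have c5 : Co (stS chevD4 K) rkD4 (repD4 4) 4 (rS τ w5) b := by simp [Co, e5', e5]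
  have m5 := R.mem_of_co (by decide) c5
  have n5 := R.not_mem c (by decide) c5 b.ne_zero
  obtain ⟨W5, hW5, d5⟩ := C.step2 hW6 p4 m5 n5 (v01 4 (by simp) _ m5 n5) (by
    rw [show w5 * w5 = 1 from Subtype.ext (by
      rw [Subgroup.coe_mul, e5', ← mul_assoc, mul_assoc _ n⁻¹, ← mul_assoc n⁻¹, inv_mul_cancel, one_mul,
        mul_assoc n, ← Subgroup.coe_mul, s6]; simp)]
    exact one_mem _) fun t ht => by
      have := t6 (n⁻¹ * t * n⁻¹⁻¹) (by simpa using conj_mem_H (inv_mem a1) ht)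
      rw [show ⁅t, w5⁆ = 1 from Subtype.ext (by
        rw [commutatorElement_def]
        push_cast
        rw [e5']
        nth_rw 2 [← this]
        simp [mul_assoc])]
      exact one_mem _
  have := hW5.normal
  have i6 : w6 ∈ W5 := (d5 _).2 (.inl ((d6 _).2 (.inr (by simp))))
  have i5 : w5 ∈ W5 := (d5 _).2 (.inr (by simp))
  have inv : ∀ g g' : (stS chevD4 K).B.comap τ, g ∈ W5 → (g' : E) = n * g * n⁻¹ → g' ∈ W5 := fun g g' hg e => by
    simp only [d5, d6, Subgroup.mem_bot, mul_inv_eq_iff_eq_mul, one_mul] at hg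
    rcases hg with (rfl | rfl) | rfl | rfl
    · exact (show 1 = g' from Subtype.ext (by simp [e])) ▸ one_mem _
    · exact (show w5 = g' from Subtype.ext (e5'.trans e.symm)) ▸ i5
    · exact (show w6 = g' from Subtype.ext (by rw [e, e5']; nth_rw 1 [← a4]; group)) ▸ i6
    · exact (show w5 * w6 = g' from Subtype.ext (by
        rw [e, Subgroup.coe_mul, Subgroup.coe_mul, e5']; nth_rw 2 [← a4]; group)) ▸ mul_mem i5 i6
  have rp : ∀ {k g w}, k ≤ 3 → k ≠ 0 → rS τ g = gw (stS chevD4 K) w → g ∈ AB rkD4 τ k → g ∉ AB rkD4 τ (k + 1) →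
      ∀ x ∈ AB rkD4 τ k, ∃ x' ∈ AB rkD4 τ k, _ ∧ rS τ x' ∈ (stS chevD4 K).U {r | r.1 ∈ w} := fun hk h0 e m1 n1 =>
    C.rep_conj m1 n1 (tr _ hk h0) (by simp) fun t ht => by
      rw [map_mul, map_mul, map_inv, e]
      exact conj_mem_of_norm (H_le_normalizer_U _ _ ht) (gw_mem fun _ => id)
  have cj : ∀ {k} {w : List ℕ}, (∀ r : Rt chevD4, r.1 ∈ w → ∃ h : wact reflD4 [1] r < chevD4.nroots, Pos ⟨_, h⟩ ∧
      k ≤ rkD4 (wact reflD4 [1] r)) → ∀ x : E, τ x ∈ (stS chevD4 K).U {r | r.1 ∈ w} →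
      ∃ x' ∈ AB rkD4 τ k, (x : E) = n * x' * n⁻¹ := fun {k w} e x hx => by
    have b1 := a2.inv.conj_mem_U (T := AS rkD4 k) (fun r hr => by
      obtain ⟨b2, b3⟩ := e r hr
      rwa [← w1D4_1, w1_inv, w1D4_1, show _ • r = ⟨_, b2⟩ from Fin.ext (a5 r)]) hx
    exact ⟨⟨n⁻¹ * x * n⁻¹⁻¹, by simpa using (stS chevD4 K).UP_le_B (U_mono _ (fun _ h => h.1) b1)⟩, by simpa [AA] using b1,
      by simp [mul_assoc]⟩
  obtain ⟨t, t1, l, t2, t3⟩ := nz 3 le_rfl (by decide)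
  refine C.down (n := 2) (C.step hW5 (fun j hj => ?_) t1 t3 t2) (fun k hk j hj => ?_) fun k hk => nz k (by omega)
  · interval_cases j
    · exact ct 3 (by decide) 0 hj (by decide) W5 hW5
    · refine C.pr_rep hW5 (rp (by decide) (by decide) e1 m1 n1) (rp le_rfl (by decide) e3 m3 n3) fun a x y hx hy => ?_
      obtain ⟨x', b1, b2⟩ := cj (k := 2) (by decide +kernel) x hx
      obtain ⟨y', b3, b4⟩ := cj (k := 3) (by decide +kernel) y hy
      exact inv _ _ (a x' b1 y' b3) ((congrArg₂ _ b2 b4).trans (conjugate_commutatorElement _ _ _).symm)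
    · exact s.pa_word h hp R hp (by decide) (i := 0) (i' := 1) (a := [14]) (b := [12, 18, 13]) (l := []) (l' := [1, 0])
        (w := [15, 19, 16, 17, 20, 21, 22, 23]) (l'' := [3, 2, 1, 0, 1, 3, 4, 3, 2, 4, 6, 7, 6, 8, 9, 8, 7, 6, 5, 8, 9, 10, 9,
          8, 7, 6, 5, 4, 3, 2, 3, 5, 6, 5, 4, 7, 6, 5, 6, 5, 7, 8, 7, 6, 7, 6, 6, 5, 4, 3, 2, 1, 2, 3, 5, 6, 5, 4, 5, 4, 3,
          2, 1, 0, 2, 4, 3, 5, 6]) (by decide +kernel) (tr 2 (by decide) (by decide)) W5 hW5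
    · exact ct 3 (by decide) 3 hj (by decide) W5 hW5
  by_cases e : (j, k) = (1, 2)
  · obtain ⟨rfl, rfl⟩ := e
    refine C.pa_add' (by rw [hK]; decide) fun l hl => ?_
    obtain ⟨a, e⟩ := Finite.surjective_of_injective ((injective_iff_map_eq_one _).2 (bijD4 h2 _ rfl)) (Units.mk0 l hl)
    obtain ⟨g, -, b⟩ := act _ (.tail _ (.tail _ (.tail _ (.head _)))) a
    have b1 := b 1 (by decide)
    have b2 := b 2 (by decide)
    rw [show ex _ _ = (-1, 1, 1) by decide +kernel, e] at b1 b2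
    exact ⟨g, b1, b2⟩
  · exact ct k (by omega) j hj (by simp at e ⊢; omega)

theorem inf_D4 (hq : 2 < q) (hK : Nat.card K = q ^ 3) {p : ℕ} (hp : (p : K) = 0) :
    ∀ z ∈ (rS τ).ker, z ∈ ⁅AB rkD4 τ 0, AB rkD4 τ 0⁆ → z = 1 := fun z => by
  have h := genD4 hφ h2
  have hψ : ∀ c : Kˣ, Units.map (φ : K →* K) c = c ^ q := fun c => Units.ext (hφ c)
  obtain ⟨c, hc⟩ := exists_nz (K := K)
  have h3 : (3 : ℤ) ≤ q := by omega
  have h4 : (q : ℤ) * q * 3 ≤ q ^ 3 := by nlinarith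
  have hN : ∀ e, NzD4 e → pw (Units.map (φ : K →* K)) e c ≠ 1 := fun e a => by
    rw [pw_eq hψ, Ne, hc, hK]
    push_cast
    rcases a with a | rfl | rfl
    · exact nz_small (by omega) (by nlinarith [a.2.2.2]) a.1 a.2
    all_goals exact fun e => (Int.le_of_dvd (by simp only [vl]; nlinarith) e).not_gt (by simp only [vl]; nlinarith)
  exact (s.ch h (stCover _ _) (stS_mult _ _) (rkD4_ok p) hp).down ⟨_, (rkD4_ok p).cpl_top⟩
    (fun k hk j hj => s.pa_ct h (rkD4_ok p) hp (by rw [hK]; zify; nlinarith) (tor_D4 hφ h2) (by simp [pw_apply]) hN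
      (bijD4 h2) (hj.trans hk) hk ((certD4 k hk).2 j hj))
    fun k hk _ => Ch.nz_cert (s.act (stCover _ _) (stS_mult _ _) (rkD4_ok p) hp (tor_D4 hφ h2)) hk hN (certD4 k hk).1

omit hφ h2 s in
theorem hasCycD4 (hq : IsPrimePow q) (hK : Nat.card K = q ^ 3) : HasCyclicSchurMultiplier (twistedD4 K q) 1 := by
  obtain ⟨φ, hφ, h2⟩ := exists_φD4 hq hK
  have h := genD4 hφ h2
  have h1 := hq.one_lt
  have hi := tor_injectiveD4 K
  obtain ⟨p, hp⟩ := CharP.exists K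
  have := Fact.mk (CharP.char_is_prime K p)
  have := finite_st (D := chevD4) (F := K)
  rw [twistedD4, ← (stCover chevD4 K).map_genW]
  refine hasCyc_map (l := 2) (n := 1) (hasCyc_one fun E _ _ τ s => ?_) (perfectD4 hφ h2 h1 hK) hi
    (twD4_ok.H_inf_eq symD4 symD4_ρ Nat.cast_zero φ hi h.le fun a => tor_memD4 hφ) Nat.prime_two (by
      rw [zker_fixTD4, Subgroup.card_bot]; rfl)
  have N1 := lnD41 hφ h2 h1 hK
  have N0 := lnD40 hφ h2 h1 hK
  rw [twistedD4, ← (stCover chevD4 K).map_genW] at N1 N0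
  refine s.ker_eq_bot (rk := rkD4) (p := p) h (stCover _ _) (stS_mult _ _) hi ⟨repsD4, by decide +kernel⟩
    (fun _ V hV => ?_) ((Nat.eq_or_lt_of_le h1).elim (fun e => inf_D4_two hφ h2 s e.symm hK ?_)
      fun e => inf_D4 hφ h2 s e hK (CharP.cast_eq_zero K p))
  · simp only [List.forall_mem_cons, List.not_mem_nil, false_imp_iff, implies_true, and_true]
    exact ⟨hV.torOk_ad h _ (stS_U_univ _ _) hi N1 fun t =>
        ⟨mem_genW (.inl ⟨t, hφ t ▸ t.2, d4p2, by simp, rfl⟩), mem_genW (.inl ⟨t, hφ t ▸ t.2, d4m2, by simp, rfl⟩)⟩,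
      hV.torOk_ad h _ (stS_U_univ _ _) hi N0 fun t =>
        ⟨mem_genW (.inr ⟨t, (d4p1, d4p3, d4p4), by simp, by rw [sq, pow_mul, ← hφ, ← hφ]; rfl⟩),
          mem_genW (.inr ⟨t, (d4m1, d4m3, d4m4), by simp, by rw [sq, pow_mul, ← hφ, ← hφ]; rfl⟩)⟩⟩
  · have := Fintype.ofFinite K
    have := FiniteField.cast_card_eq_zero K
    rw [← Nat.card_eq_fintype_card, hK, Nat.cast_pow] at this
    exact (show q = 2 by omega) ▸ (pow_eq_zero_iff three_ne_zero).1 this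

end Cfsg.Agent.TwM
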