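import Cfsg.Agent.TwM.SzN
/-! The Schur multiplier of ²F₄(q). -/

set_option autoImplicit false

namespace Cfsg.Agent.TwM

open Cfsg.Lie Cfsg.Agent.Chev Cfsg.Agent.Chev.Sys Cfsg.Agent.ChAut
open scoped commutatorElement

/-- The ranks of the roots. -/
def rkF4 : ℕ → ℕ :=
  byt 0xb0a090b0807050a09080607040200060403050301020100000000000000000000000000000000000000000000000000

/-- The representatives of the orbits. -/
def repF4 (k : ℕ) : Rt chevF4 := ⟨byt 0x2c28272624201d1f1c1a1918 k % chevF4.nroots, Nat.mod_lt _ (by decide)⟩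

theorem rkF4_ok : Rk symF4 2 rkF4 repF4 11 :=
  ⟨by decide +kernel, by decide +kernel, by decide +kernel, by decide +kernel, by decide +kernel, by decide +kernel⟩

/-- Exponents of torus elements. -/
def torF4 : List (List Z3) := [[0, (1, 0, 0), (0, 2, 0), 0], [(1, 0, 0), (1, 0, 0), (0, 2, 0), (0, 2, 0)],
  [(1, 0, 0), (1, 1, 0), (1, 2, 0), (0, 2, 0)], [(1, -1, 0), (0, 1, 0), (1, 0, 0), (-1, 2, 0)], [(1, 0, 0), 0, 0, (0, 2, 0)],
  [(0, 1, 0), (1, 0, 0), (0, 2, 0), (1, 0, 0)], [(1, 0, 0), (2, 0, 0), (0, 4, 0), (0, 2, 0)]]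

/-- Exponents of bijective power maps. -/
abbrev NzF4 (e : Z3) : Prop := e.2.2 = 0 ∧ 2 * e.1 ^ 2 - e.2.1 ^ 2 ∣ 2 ^ 4

set_option synthInstance.maxSize 1000 in
theorem certF4' : ∀ k ≤ 11, (∃ M ∈ torF4, NzF4 (ex M (repF4 k))) ∧ ∀ j ≤ k, (j, k) ∈ [(1, 3), (2, 7), (4, 10), (5, 11)] ∨
    Ct symF4 twF4 repF4 torF4 (· = 0) NzF4 NzF4 id id j k := by decide +kernel

variable {K : Type*} [Field K] {e : ℕ} {φ : K →+* K} (hp : ((2 : ℕ) : K) = 0) (hφ : ∀ t, φ t = t ^ e)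
  (h2 : ∀ t, φ (φ t) ^ 2 = t)
include hp h2

theorem bijF4 (z : Z3) (hz : NzF4 z) (c : Kˣ) (h : pw (Units.map (φ : K →* K)) z c = 1) : c = 1 := by
  have := ringChar.of_eq (CharP.ringChar_of_prime_eq_zero Nat.prime_two hp)
  obtain ⟨k, hk⟩ := hz.2
  rw [pw_apply, hz.1, zpow_zero, mul_one, mul_comm] at h
  have h3 := congrArg (· ^ k) (zpow_eq_one_of_twist (p := 2) _ (Units.ext (h2 c)) h)
  simp only [← zpow_mul, Nat.cast_ofNat, ← hk, one_zpow] at h3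
  exact Units.ext ((iterateFrobenius K 2 4).injective (by
    simpa [iterateFrobenius_def, zpow_ofNat] using congrArg Units.val h3))

include hφ

theorem tor_F4 : ∀ M ∈ torF4, ∀ a, (stS_mult chevF4 K).tor (fun i => pw (Units.map (φ : K →* K)) (M.getD i 0) a) ∈
    (stS chevF4 K).genW (f4Words K e) := fun M hM a => by
  have b : ∀ y z : Z3, y.2.2 = 0 ∧ z = (y.2.1, 2 * y.1, 0) →
      pw (Units.map (φ : K →* K)) y a = Units.map (φ : K →* K) (pw (Units.map (φ : K →* K)) z a) := by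
    rintro y _ ⟨b, rfl⟩
    exact Units.ext (by simpa [pw_apply, b, zpow_mul, zpow_ofNat, h2] using mul_comm _ _)
  have b' := (by decide +kernel : ∀ M ∈ torF4, ∀ p ∈ [(0, 3), (1, 2)], (M.getD p.1 0).2.2 = 0 ∧
    M.getD p.2 0 = ((M.getD p.1 0).2.1, 2 * (M.getD p.1 0).1, 0)) M hM
  convert tor_memF4 hp hφ h2 (pw (Units.map (φ : K →* K)) (M.getD 3 0) a, pw (Units.map (φ : K →* K)) (M.getD 2 0) a)
    using 2
  refine funext fun i : Fin 4 => ?_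
  fin_cases i
  exacts [b _ _ (b' _ (.head _)), b _ _ (b' _ (.tail _ (.head _))), rfl, rfl]

variable [Finite K]

set_option synthInstance.maxSize 1000 in
theorem inf_F4 {E : Type*} [Group E] {τ : E →* chevF4.SteinbergGroup K}
    (s : St ((stS chevF4 K).genW (f4Words K e)) τ) (hK : 4 < Nat.card K) :
    ∀ z ∈ (rS τ).ker, z ∈ ⁅AB rkF4 τ 0, AB rkF4 τ 0⁆ → z = 1 := fun z => by
  have h := genF4 hp hφ h2
  have R := rkF4_ok
  have c := stCover chevF4 K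
  have m := stS_mult chevF4 K
  have C : Ch _ (TB τ) (AB rkF4 τ) (cB rkF4 repF4 11 τ) := s.ch h c m R hp
  have act := s.act c m R hp (tor_F4 hp hφ h2)
  obtain ⟨c0, hc⟩ := exists_pow_ne_one (F := K) one_pos (by omega)
  have hN : ∀ z, NzF4 z → pw (Units.map (φ : K →* K)) z c0 ≠ 1 := fun z hz e =>
    hc (by simpa using bijF4 hp h2 z hz c0 e)
  have ct : ∀ k ≤ 11, ∀ j ≤ k, (j, k) ∉ [(1, 3), (2, 7), (4, 10), (5, 11)] →
      Pa (rS τ).ker (AB rkF4 τ) j k := fun k hk j hj e => s.pa_ct h R hp hK (tor_F4 hp hφ h2)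
    (by simp [pw_apply]) hN (bijF4 hp h2) (hj.trans hk) hk (((certF4' k hk).2 j hj).resolve_left e)
  have tr := fun k (hk : k ≤ 11) => Ch.tr_cert act hk (bijF4 hp h2) (certF4' k hk).1
  obtain ⟨g0, e0, m0, -⟩ := s.lift_hd h hp R (k := 0) (w := [24, 33]) (l := [0]) (by decide) (by decide +kernel)
  obtain ⟨g1, e1, m1, n1⟩ := s.lift_hd h hp R (k := 1) (w := [25, 27, 30]) (l := [0, 3, 2]) (by decide) (by decide +kernel)
  obtain ⟨g3, e3, m3, n3⟩ := s.lift_hd h hp R (k := 3) (w := [28, 30]) (l := [0]) (by decide) (by decide +kernel)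
  have e4 : rS τ ⁅g0, g3⁆ = gw (stS chevF4 K) ([31, 35] ++ [29, 41, 32, 37, 36, 42, 38, 43, 46, 47]) := by
    rw [map_commutatorElement, e0, e3]
    exact gw_comm hp (l := [3, 2, 1, 2, 4, 5, 4, 3, 2, 1, 0, 2, 1, 3, 2, 4, 3, 5, 6, 7, 8, 7, 6, 5, 7, 8, 9, 10, 9, 8, 11,
      10, 9, 8, 7, 9, 10, 11, 12, 13, 12, 11, 10, 14, 13, 15, 14, 13, 12, 11, 10, 9, 8, 7, 6, 5, 4, 3, 2, 1, 9, 8, 10, 9,
      11, 10, 9, 12, 11, 10, 13, 14, 13, 12, 11, 15, 14, 13, 12, 14, 13, 13, 14, 13, 12, 11, 10, 9, 8, 7, 6, 5, 4, 3, 2, 1,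
      0, 7, 9, 10, 9, 8, 11, 10, 12, 11, 10, 9, 13, 12, 11, 10, 12, 11, 10, 11]) (by decide +kernel)
  have m4 := Subgroup.commutator_mem_commutator m0 (C.le0 _ m3)
  generalize ⁅g0, g3⁆ = g4 at e4 m4
  have c4 : Co (stS chevF4 K) rkF4 (repF4 4) 4 (rS τ g4) 1 := e4 ▸ Hd.co (by decide +kernel)
  have p11 : ∀ j ≤ 11, Pa (rS τ).ker (AB rkF4 τ) j 11 := fun j hj => by
    by_cases e : j = 5
    swap
    · exact ct 11 le_rfl j hj (by simpa)
    subst e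
    have c5 : Co (stS chevF4 K) rkF4 (repF4 5) 5 (gw (stS chevF4 K) [29, 41, 32, 37, 36, 42, 38, 43, 46, 47]) 1 :=
      Hd.co (by decide +kernel)
    have u5 : gw (stS chevF4 K) [29, 41, 32, 37, 36, 42, 38, 43, 46, 47] ∈ (stS chevF4 K).U (AS rkF4 5) :=
      gw_mem (by unfold AS; decide +kernel)
    rw [gw_append] at e4
    generalize gw (stS chevF4 K) [29, 41, 32, 37, 36, 42, 38, 43, 46, 47] = u at e4 c5 u5
    obtain ⟨t, et⟩ := s.surj _ (tor_F4 hp hφ h2 _ (.tail _ (.head _)) c0)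
    have b0 := m.tor_conj fun i => pw (Units.map (φ : K →* K)) ([(1, 0, 0), (1, 0, 0), (0, 2, 0), (0, 2, 0)].getD i 0) c0
    have b1 := et ▸ m.tor_mem_H _
    simp only [chi_pw, ← et] at b0
    have b2 : τ t * gw (stS chevF4 K) [31, 35] * (τ t)⁻¹ = gw (stS chevF4 K) [31, 35] := by
      have b2 := b0 ⟨31, by decide⟩ 1
      have b3 := b0 ⟨35, by decide⟩ 1
      rw [show ex _ _ = 0 by decide +kernel] at b2 b3
      simp only [← xN_val, pw_apply, Prod.fst_zero, Prod.snd_zero, zpow_zero, mul_one, Units.val_one] at b2 b3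
      rw [gw, List.map_cons, List.map_singleton, List.prod_cons, List.prod_singleton]
      nth_rw 2 [← b2, ← b3]
      group
    let t' : (stS chevF4 K).B.comap τ := ⟨t, (stS chevF4 K).H_le_B b1⟩
    have b3 : rS τ (g4⁻¹ * (t' * g4 * t'⁻¹)) = u⁻¹ * (τ t * u * (τ t)⁻¹) := by
      rw [map_mul, map_mul, map_mul, map_inv, map_inv, e4]
      change _ * (τ t * _ * (τ t)⁻¹) = _
      rw [← mul_assoc (τ t), mul_inv_eq_iff_eq_mul.1 b2]
      group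
    have := C.normal 0
    refine C.pa_comm' (z := g4⁻¹ * (t' * g4 * t'⁻¹)) (mul_mem (inv_mem m4) (Subgroup.Normal.conj_mem inferInstance _ m4 _))
      (by simpa [AA, ← b3] using mul_mem (inv_mem u5) (conj_mem_of_norm (H_le_normalizer_U _ _ b1) u5)) (fun b4 => ?_)
      (tr 5 hj)
    have b5 := R.co_mul hp (R.rp' 5) c5 (t' := 0) (u' := u⁻¹ * (τ t * u * (τ t)⁻¹))
      (by simpa [Co, ← b3] using (stS chevF4 K).U_mono (R.rp' 5).2 b4)
    have b6 := conj_mem_of_norm (H_le_normalizer_U _ _ b1) c5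
    rw [show τ t * (_ * u) * (τ t)⁻¹ = (τ t * (stS chevF4 K).x (repF4 5) 1 * (τ t)⁻¹)⁻¹ * (τ t * u * (τ t)⁻¹) by group,
      b0] at b6
    have b7 := R.co_unique (R.rp' 5) c b6 (by simpa using b5)
    rw [mul_one, Units.val_eq_one] at b7
    exact hN _ (by decide +kernel) b7
  have cm := C.cm_of_pr R.cpl_top fun j hj => p11 j hj ⊥ R.cpl_top
  obtain ⟨_, -, a2, a3⟩ := h.fold.exists_N (mul_mem (mul_mem (symF4.w1_mem ⟨0, by decide⟩) (symF4.w1_mem ⟨1, by decide⟩))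
    (symF4.w1_mem ⟨0, by decide⟩))
  obtain ⟨n, rfl⟩ := s.surj _ a3
  rw [w1F4, w1F4, ← wd_append, ← wd_append] at a2
  have rp : ∀ {k g w}, k ≤ 11 → rS τ g = gw (stS chevF4 K) w → g ∈ AB rkF4 τ k → g ∉ AB rkF4 τ (k + 1) →
      ∀ x ∈ AB rkF4 τ k, ∃ x' ∈ AB rkF4 τ k, _ ∧ rS τ x' ∈ (stS chevF4 K).U {r | r.1 ∈ w} := fun hk e m1 n1 =>
    C.rep_conj m1 n1 (tr _ hk) (by simp) fun t ht => by
      rw [map_mul, map_mul, map_inv, e]
      exact conj_mem_of_norm (H_le_normalizer_U _ _ ht) (gw_mem fun _ => id)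
  have cj : ∀ {k} {w : List ℕ}, (∀ r : Rt chevF4, r.1 ∈ w → ∃ h : wact reflF4 [0, 3, 1, 2, 1, 2, 0, 3] r < chevF4.nroots,
      Pos ⟨_, h⟩ ∧ k ≤ rkF4 (wact reflF4 [0, 3, 1, 2, 1, 2, 0, 3] r)) → ∀ x : E, τ x ∈ (stS chevF4 K).U {r | r.1 ∈ w} →
      ∃ x' ∈ AB rkF4 τ k, n * x * n⁻¹ = x' := fun {k w} e x hx => by
    have b1 := a2.conj_mem_U (T := AS rkF4 k) (fun r hr => by
      obtain ⟨b2, b3⟩ := e r hr
      rwa [show _ • r = ⟨_, b2⟩ from Fin.ext (isReflF4.wd_smul (by decide) r)]) hx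
    exact ⟨⟨n * x * n⁻¹, by simpa using (stS chevF4 K).UP_le_B (U_mono _ (fun _ h => h.1) b1)⟩, by simpa [AA] using b1, rfl⟩
  refine C.down (n := 11) ⟨_, R.cpl_top⟩ (fun k hk j hj => ?_) fun k hk _ => Ch.nz_cert act hk hN (certF4' k hk).1
  by_cases e : (j, k) ∈ [(1, 3), (2, 7), (4, 10), (5, 11)]
  swap
  · exact ct k hk j hj e
  simp only [List.mem_cons, Prod.mk.injEq, List.not_mem_nil, or_false] at e
  rcases e with ⟨rfl, rfl⟩ | ⟨rfl, rfl⟩ | ⟨rfl, rfl⟩ | ⟨rfl, rfl⟩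
  · refine fun W _ hW => C.pr_rep hW (rp (by decide) e1 m1 n1) (rp hk e3 m3 n3) fun _ x y hx hy => ?_
    obtain ⟨x', b1, b2⟩ := cj (k := 0) (by decide +kernel) x hx
    obtain ⟨y', b3, b4⟩ := cj (k := 11) (by decide +kernel) y hy
    have b5 := congrArg Subtype.val (Subgroup.mem_bot.1 ((QuotientGroup.eq_one_iff _).1 (cm x' b1 y' b3)))
    rw [show ⁅x, y⁆ = 1 from Subtype.ext (conj_eq_one_iff.1 ((conjugate_commutatorElement _ _ _).trans
      ((congrArg₂ _ b2 b4).trans b5)))]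
    exact one_mem _
  · exact s.pa_word h hp R hp (by decide) (i := 0) (i' := 1) (a := [24, 33]) (b := [25, 27, 30]) (l := [0])
      (l' := [0, 3, 2]) (w := [26, 34, 31, 35, 32, 37, 42, 38, 43, 39, 45, 40, 47]) (l'' := [4, 3, 2, 1, 5, 6, 5, 4, 3, 2,
        1, 0, 1, 3, 4, 3, 6, 5, 4, 7, 6, 5, 6, 7, 8, 7, 9, 9, 8, 7, 6, 5, 4, 8, 7, 6, 5, 4, 3, 2, 1, 2, 3, 2, 5, 4, 4, 5, 6,
        7, 6, 5, 4, 3, 2, 1, 0, 3, 2, 5, 4, 6, 5, 7, 6, 5, 8, 7, 6, 5, 4, 5, 6, 7, 6, 5, 7, 6, 8, 7, 9, 8, 7, 10, 9])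
      (by decide +kernel) (tr 2 (by decide))
  · exact C.pa_comm' m4 (R.mem_of_co (by decide) c4) (R.not_mem c (by decide) c4 one_ne_zero) (tr 4 (by decide))
  · exact p11 5 hj

omit hp hφ h2 in
theorem hasCycF4 {m : ℕ} (hm : 1 ≤ m) (hK : Nat.card K = 2 ^ (2 * m + 1)) :
    HasCyclicSchurMultiplier (twistedF4 K (2 ^ m)) 1 := by
  obtain ⟨hp, φ, hφ, h2⟩ := exists_sqrt_hom Nat.prime_two hK
  have := ringChar.of_eq (CharP.ringChar_of_prime_eq_zero Nat.prime_two hp)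
  have h := genF4 hp hφ h2
  have h4 : 4 < Nat.card K := hK ▸ lt_of_lt_of_le (by decide) (Nat.pow_le_pow_right two_pos (by omega : 3 ≤ _))
  have hi := tor_injectiveF4 (K := K)
  have := finite_st (D := chevF4) (F := K)
  have N0 := lnF40 hp hφ h2
  rw [twistedF4, ← (stCover chevF4 K).map_genW] at N0 ⊢
  refine hasCyc_map (l := 2) (n := 1) (hasCyc_one fun E _ _ τ s => ?_) (perfectF4 hp hφ h2 (by omega)) hi
    (H_inf_eqF4 hp hφ h2) Nat.prime_two (by rw [zkerF4_eq_bot, bot_inf_eq, Subgroup.card_bot]; rfl)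
  refine s.ker_eq_bot (rk := rkF4) (p := 2) h (stCover _ _) (stS_mult _ _) hi ⟨repsF4, by decide +kernel⟩
    (fun a V hV => ?_) (inf_F4 hp hφ h2 s h4)
  simp only [List.forall_mem_cons, List.not_mem_nil, false_imp_iff, implies_true, and_true]
  exact ⟨hV.torOk_ad h _ (stS_U_univ _ _) hi N0 fun t =>
    ⟨mem_genW (.inl ⟨t, .inl (by rw [f4PairWord, ← hφ]; rfl)⟩), mem_genW (.inl ⟨t, .inr (by rw [f4PairWord, ← hφ]; rfl)⟩)⟩,
    hV.torOk_sz hp hφ h2 (by omega) a⟩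

end Cfsg.Agent.TwM
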