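import Cfsg.Agent.TwM.Pure
import Mathlib.FieldTheory.Finite.Basic
/-! Central extensions of a group with a filtration whose factors carry coordinates (`Ch`): the splitting of the
extension over the filtered subgroup, step by step (`Ch.step`, `Ch.down`). -/

set_option autoImplicit false

namespace Cfsg.Agent.TwM

open scoped commutatorElement

variable {E K : Type*} [Group E] [Field K]

/-- A filtration with coordinates. -/
structure Ch (Z T : Subgroup E) (A : ℕ → Subgroup E) (co : ℕ → E → K) : Prop where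
  cent : Z ≤ Subgroup.center E
  normal : ∀ k, (A k).Normal
  anti : ∀ k, A (k + 1) ≤ A k
  le : ∀ k, Z ≤ A k
  comm : ∀ k, ∀ x ∈ A 0, ∀ y ∈ A k, ⁅x, y⁆ ∈ A (k + 1)
  add : ∀ k, ∀ x ∈ A k, ∀ y ∈ A k, co k (x * y) = co k x + co k y
  zero : ∀ k, ∀ x ∈ A k, co k x = 0 ↔ x ∈ A (k + 1)
  dec : ∀ g, ∃ u ∈ A 0, ∃ t ∈ T, g = u * t
  tc : ∀ t ∈ T, ∀ t' ∈ T, ⁅t, t'⁆ ∈ Z

/-- The element `h` multiplies the coordinate by `l`. -/
def Ac (A : ℕ → Subgroup E) (co : ℕ → E → K) (k : ℕ) (h : E) (l : K) : Prop :=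
  ∀ x ∈ A k, co k (h * x * h⁻¹) = l * co k x

/-- The pairing of the factors `j` and `k` is trivial modulo `W`. -/
def Pr (A : ℕ → Subgroup E) (W : Subgroup E) [W.Normal] (j k : ℕ) : Prop :=
  Cm (QuotientGroup.mk' W) (A (j + 1)) (A k) → Cm (QuotientGroup.mk' W) (A j) (A k)

/-- The pairing is trivial modulo every complement. -/
def Pa (Z : Subgroup E) (A : ℕ → Subgroup E) (j k : ℕ) : Prop :=
  ∀ (W : Subgroup E) [W.Normal], Cpl Z (A (k + 1)) W → Pr A W j k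

namespace Ch

variable {Z T : Subgroup E} {A : ℕ → Subgroup E} {co : ℕ → E → K} (C : Ch Z T A co) {j k : ℕ}
include C

theorem le0 (k : ℕ) : A k ≤ A 0 := antitone_nat_of_succ_le C.anti k.zero_le

theorem co_one : co k 1 = 0 := (C.zero k 1 (one_mem _)).2 (one_mem _)

theorem co_inv {x : E} (h : x ∈ A k) : co k x⁻¹ = -co k x := by
  rw [eq_neg_iff_add_eq_zero, ← C.add k _ (inv_mem h) _ h, inv_mul_cancel, C.co_one]

theorem inv_mul_mem {x y : E} (hx : x ∈ A k) (hy : y ∈ A k) (e : co k x = co k y) : x⁻¹ * y ∈ A (k + 1) := by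
  rw [← C.zero k _ (mul_mem (inv_mem hx) hy), C.add k _ (inv_mem hx) _ hy, C.co_inv hx, e, neg_add_cancel]

theorem ac_mul {a b : E} {l m : K} (h1 : Ac A co k a l) (h2 : Ac A co k b m) : Ac A co k (a * b) (l * m) :=
  fun x hx => by rw [mul_assoc l, ← h2 x hx, ← h1 _ ((C.normal k).conj_mem _ hx b)]; congr 1; group

theorem ac_inv {a : E} {l : K} (h1 : Ac A co k a l) (h : l ≠ 0) : Ac A co k a⁻¹ l⁻¹ := fun x hx => by
  rw [eq_inv_mul_iff_mul_eq₀ h, ← h1 _ ((C.normal k).conj_mem _ hx _)]; congr 1; group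

theorem co_comm {h y : E} {l : K} (h1 : Ac A co k h l) (hy : y ∈ A k) : co k ⁅h, y⁆ = (l - 1) * co k y := by
  rw [commutatorElement_def, C.add k _ ((C.normal k).conj_mem _ hy h) _ (inv_mem hy), h1 y hy, C.co_inv hy]; ring

theorem surj [Finite K] {f : E → E} {l : K} (hl : l ≠ 0) (hf : ∀ y ∈ A k, f y ∈ A k ∧ co k (f y) = l * co k y) :
    ∀ y ∈ A k, ∃ y' ∈ A k, (f y')⁻¹ * y ∈ A (k + 1) := fun y hy => by
  have := Fintype.ofFinite K
  have h1 : ∀ n, f^[n] y ∈ A k ∧ co k (f^[n] y) = l ^ n * co k y := fun n => by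
    induction n with
    | zero => simpa
    | succ n ih => rw [Function.iterate_succ_apply', (hf _ ih.1).2, ih.2, pow_succ']; exact ⟨(hf _ ih.1).1, by ring⟩
  refine ⟨_, (h1 (Fintype.card K - 2)).1, C.inv_mul_mem (hf _ (h1 _).1).1 hy ?_⟩
  rw [(hf _ (h1 _).1).2, (h1 _).2, ← mul_assoc, ← pow_succ', show Fintype.card K - 2 + 1 = Fintype.card K - 1 by
    have := Fintype.one_lt_card (α := K); omega, FiniteField.pow_card_sub_one_eq_one l hl, one_mul]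

section
variable {W : Subgroup E} [W.Normal] (hW : Cpl Z (A (k + 1)) W)
include hW

theorem cc (j : ℕ) : Cc (QuotientGroup.mk' W) (A j) (A k) := fun x hx y hy g => by
  rw [← commutatorElement_eq_one_iff_mul_comm, ← map_commutatorElement]
  exact (hW.cm C.cent).symm _ trivial _ (C.comm k x (C.le0 j hx) y hy)

theorem cm (j : ℕ) : Cm (QuotientGroup.mk' W) (A j) (A (k + 1)) := (hW.cm C.cent).symm.mono le_top le_rfl

theorem cm_of_pr (h : ∀ j ≤ k, Pr A W j k) : Cm (QuotientGroup.mk' W) (A 0) (A k) :=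
  Nat.decreasingInduction (motive := fun j _ => Cm _ (A j) (A k)) (fun j hj => h j (Nat.lt_succ_iff.1 hj))
    (C.cm hW k).symm (k + 1).zero_le

theorem pr_rep {P Q : E → Prop} (h1 : ∀ x ∈ A j, ∃ x' ∈ A j, co j x' = co j x ∧ P x')
    (h2 : ∀ y ∈ A k, ∃ y' ∈ A k, co k y' = co k y ∧ Q y') 
    (h3 : (∀ x ∈ A (j + 1), ∀ y ∈ A k, ⁅x, y⁆ ∈ W) → ∀ x y, P x → Q y → ⁅x, y⁆ ∈ W) : Pr A W j k :=
  fun h x hx y hy => by
    obtain ⟨x', a1, a2, a3⟩ := h1 x hx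
    obtain ⟨y', b1, b2, b3⟩ := h2 y hy
    rw [(C.cc hW j).of_mod (C.anti j) h hy (C.inv_mul_mem a1 hx a2),
      (C.cc hW j).of_mod' (C.anti k) (C.cm hW j) a1 (C.inv_mul_mem b1 hy b2)]
    exact (QuotientGroup.eq_one_iff _).2 (h3 (fun x hx y hy => (QuotientGroup.eq_one_iff _).1 (h x hx y hy)) _ _ a3 b3)

theorem step [Finite K] (h1 : ∀ j ≤ k, Pr A W j k) {h : E} {l : K} (h2 : h ∈ T) (h3 : Ac A co k h l) (h4 : l ≠ 1) :
    ∃ W', Cpl Z (A k) W' :=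
  have := C.normal k
  (exists_compl hW C.cent (C.le _) (C.anti k) (C.le0 k) (C.cm_of_pr hW h1) (h := h)
    (fun g => (C.dec g).imp fun _ ⟨a, t, b, c⟩ => ⟨a, t, C.tc _ b _ h2, c⟩)
    (fun y hy e => by
      rwa [← C.zero k _ (C.anti k e), C.co_comm h3 hy, mul_eq_zero, or_iff_right (sub_ne_zero.2 h4), C.zero k y hy] at e)
    (C.surj (sub_ne_zero.2 h4) fun y hy => ⟨mul_mem (this.conj_mem _ hy h) (inv_mem hy), C.co_comm h3 hy⟩)).imp
    fun _ => And.left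

theorem step2 (h1 : ∀ j ≤ k, Pr A W j k) {w : E} (h2 : w ∈ A k) (h3 : w ∉ A (k + 1))
    (h4 : ∀ x ∈ A k, co k x = 0 ∨ co k x = co k w) (h5 : w * w ∈ W) (h6 : ∀ t ∈ T, ⁅t, w⁆ ∈ W) :
    ∃ W', Cpl Z (A k) W' ∧ ∀ g, g ∈ W' ↔ g ∈ W ∨ g * w⁻¹ ∈ W := by
  set q := QuotientGroup.mk' W
  have a0 : ∀ {x}, x ∈ W ↔ q x = 1 := (QuotientGroup.eq_one_iff _).symm
  have a1 : ∀ g, q g * q w * (q g)⁻¹ = q w := fun g => by
    obtain ⟨u, b1, t, b2, rfl⟩ := C.dec g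
    have b3 := a0.1 (h6 t b2)
    have b4 := C.cm_of_pr hW h1 u b1 w h2
    rw [map_commutatorElement, commutatorElement_eq_one_iff_mul_comm] at b3 b4
    rw [map_mul, mul_assoc (q u), b3, ← mul_assoc, b4, mul_assoc (q w), mul_inv_cancel_right]
  have a2 : ∀ g, g ∈ (Subgroup.zpowers (q w)).comap q ↔ g ∈ W ∨ g * w⁻¹ ∈ W := fun g => by
    rw [a0, a0, map_mul, map_inv, mul_inv_eq_one, Subgroup.mem_comap]
    refine ⟨fun ⟨n, hn⟩ => ?_, fun h => h.elim (· ▸ one_mem _) (· ▸ Subgroup.mem_zpowers _)⟩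
    rw [← hn]
    dsimp only
    rw [zpow_eq_zpow_emod n (n := 2) (by rw [zpow_two, ← map_mul, ← a0]; exact h5)]
    rcases Int.emod_two_eq_zero_or_one n with e | e <;> simp [e]
  refine ⟨(Subgroup.zpowers (q w)).comap q, ⟨⟨fun x ⟨n, hn⟩ g => ⟨n, ?_⟩⟩, fun z hz h => ((a2 z).1 h).elim (hW.disj z hz) fun e => (h3 ?_).elim,
    fun x hx => ((a2 x).1 hx).elim (fun e => C.anti k (hW.le e)) fun e => ?_, fun x hx => ?_⟩, a2⟩
  · rw [map_mul, map_mul, map_inv, ← hn, ← conj_zpow, a1]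
  · simpa using mul_mem (inv_mem (hW.le e)) (C.le _ hz)
  · simpa using mul_mem (C.anti k (hW.le e)) h2
  · rcases h4 x hx with e | e
    · exact (hW.dec x ((C.zero k x hx).1 e)).imp fun z b => ⟨b.1, (a2 _).2 (.inl b.2)⟩
    · refine (hW.dec _ (C.inv_mul_mem h2 hx e.symm)).imp fun z b => ⟨b.1, (a2 _).2 (.inr ?_)⟩
      simpa [mul_assoc] using hW.normal.conj_mem _ b.2 w

end

theorem down [Finite K] {n : ℕ} (h0 : ∃ W, Cpl Z (A (n + 1)) W) (h1 : ∀ k ≤ n, ∀ j ≤ k, Pa Z A j k)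
    (h2 : ∀ k ≤ n, k ≠ 0 → ∃ h ∈ T, ∃ l, l ≠ 1 ∧ Ac A co k h l) {z : E} (hz : z ∈ Z) (hz' : z ∈ ⁅A 0, A 0⁆) : z = 1 := by
  obtain ⟨W, hW⟩ : ∃ W, Cpl Z (A (0 + 1)) W := Nat.decreasingInduction (motive := fun k _ => ∃ W, Cpl Z (A (k + 1)) W)
    (fun k hk ⟨W, hW⟩ => by
      have := hW.normal
      obtain ⟨h, a1, l, a2, a3⟩ := h2 (k + 1) hk k.succ_ne_zero
      exact C.step hW (fun j hj => h1 _ hk j hj W hW) a1 a3 a2) h0 n.zero_le
  have := hW.normal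
  exact hW.disj z hz (Subgroup.commutator_le.2 (fun x hx y hy => (QuotientGroup.eq_one_iff _).1
    (C.cm_of_pr hW (fun j hj => h1 0 n.zero_le j hj W hW) x hx y hy)) hz')

omit [Field K] C in
theorem cpl_bot (h : A k ≤ Z) : Cpl Z (A k) ⊥ :=
  ⟨inferInstance, fun _ _ h => h, bot_le, fun x hx => ⟨x⁻¹, inv_mem (h hx), by simp⟩⟩

theorem pa_comm {z : E} (h1 : z ∈ ⁅A 0, A 0⁆) (h2 : z ∈ A j)
    (h3 : ∀ x ∈ A j, co j x = 0 ∨ ∃ h, co j (h * z * h⁻¹) = co j x) : Pa Z A j k := fun W _ hW h' x hx y hy => by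
  have c := C.cc hW 0
  have a : ∀ z ∈ ⁅A 0, A 0⁆, QuotientGroup.mk' W ⁅z, y⁆ = 1 := fun z hz => by
    have := C.normal 0
    refine Subgroup.closure_induction (p := fun z _ => QuotientGroup.mk' W ⁅z, y⁆ = 1) ?_ (by simp)
      (fun a b _ hb h1 h2 => by rw [c.left _ (Subgroup.commutator_le_left _ _ hb) hy, h1, h2, one_mul])
      (fun a ha h => by simpa [h] using (c.left a⁻¹ (Subgroup.commutator_le_left _ _ ha) hy).symm) hz
    rintro _ ⟨a, ha, b, hb, rfl⟩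
    exact c.comm ha hb hy
  rcases h3 x hx with e | ⟨h, e⟩
  · exact h' x ((C.zero j x hx).1 e) y hy
  · have := C.normal 0
    rw [(C.cc hW j).of_mod (C.anti j) h' hy (C.inv_mul_mem ((C.normal j).conj_mem _ h2 h) hx e)]
    exact a _ (Subgroup.Normal.conj_mem inferInstance _ h1 h)

theorem exists_conj {z : E} (h1 : z ∈ A j) (h2 : z ∉ A (j + 1)) (h3 : ∀ l : K, l ≠ 0 → ∃ h ∈ T, Ac A co j h l) :
    ∀ x ∈ A j, co j x = 0 ∨ ∃ h ∈ T, co j (h * z * h⁻¹) = co j x := fun x _ => or_iff_not_imp_left.2 fun e => by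
  rw [← C.zero j _ h1] at h2
  obtain ⟨h, a, b⟩ := h3 _ (div_ne_zero e h2)
  exact ⟨h, a, by rw [b _ h1, div_mul_cancel₀ _ h2]⟩

theorem pa_comm' {z : E} (h0 : z ∈ ⁅A 0, A 0⁆) (h1 : z ∈ A j) (h2 : z ∉ A (j + 1))
    (h3 : ∀ l : K, l ≠ 0 → ∃ h ∈ T, Ac A co j h l) : Pa Z A j k :=
  C.pa_comm h0 h1 fun x hx => (C.exists_conj h1 h2 h3 x hx).imp_right fun ⟨h, _, e⟩ => ⟨h, e⟩

theorem rep_conj {P : E → Prop} {z : E} (h1 : z ∈ A j) (h2 : z ∉ A (j + 1))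
    (h3 : ∀ l : K, l ≠ 0 → ∃ h ∈ T, Ac A co j h l) (h4 : P 1) (h5 : ∀ h ∈ T, P (h * z * h⁻¹)) :
    ∀ x ∈ A j, ∃ x' ∈ A j, co j x' = co j x ∧ P x' := fun x hx =>
  (C.exists_conj h1 h2 h3 x hx).elim (fun e => ⟨1, one_mem _, e ▸ C.co_one, h4⟩) fun ⟨h, a, e⟩ =>
    ⟨_, (C.normal j).conj_mem _ h1 h, e, h5 h a⟩

theorem rep_two {g : E} (hg : g ∈ A k) (h : ∀ x ∈ A k, co k x = 0 ∨ co k x = co k g) :
    ∀ x ∈ A k, ∃ x' ∈ A k, co k x' = co k x ∧ (x' = 1 ∨ x' = g) := fun x hx =>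
  (h x hx).elim (fun e => ⟨1, one_mem _, e ▸ C.co_one, .inl rfl⟩) fun e => ⟨g, hg, e.symm, .inr rfl⟩

theorem pr_two {W : Subgroup E} [W.Normal] (hW : Cpl Z (A (k + 1)) W) {g g' : E} (hg : g ∈ A j)
    (h : ∀ x ∈ A j, co j x = 0 ∨ co j x = co j g) (hg' : g' ∈ A k) (h' : ∀ x ∈ A k, co k x = 0 ∨ co k x = co k g')
    (e : ⁅g, g'⁆ ∈ W) : Pr A W j k :=
  C.pr_rep hW (C.rep_two hg h) (C.rep_two hg' h') (by rintro - _ _ (rfl | rfl) (rfl | rfl) <;> simp [one_mem, e])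

variable [Finite K]

theorem sep_aux {h : E} {l : K} (h2 : Ac A co k h l) (h3 : l ≠ 1) :
    ∀ y ∈ A k, ∃ y' ∈ A k, h * y' * h⁻¹ ∈ A k ∧ (h * y' * h⁻¹ * y'⁻¹)⁻¹ * y ∈ A (k + 1) := fun y hy =>
  (C.surj (f := fun y => ⁅h, y⁆) (sub_ne_zero.2 h3) (fun _ hy => ⟨mul_mem ((C.normal k).conj_mem _ hy h) (inv_mem hy),
    C.co_comm h2 hy⟩) y hy).imp fun _ a => ⟨a.1, (C.normal k).conj_mem _ a.1 h, a.2⟩

theorem pa_sep {h : E} {l : K} (h1 : Ac A co j h 1) (h2 : Ac A co k h l) (h3 : l ≠ 1) : Pa Z A j k :=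
  fun W _ hW h' => (C.cc hW j).sep (C.anti j) (C.anti k) h' (C.cm hW j) (fun x hx =>
    C.inv_mul_mem hx ((C.normal j).conj_mem _ hx h) (by rw [h1 x hx, one_mul])) (C.sep_aux h2 h3)

theorem pa_sep' {h : E} {l : K} (h1 : Ac A co k h 1) (h2 : Ac A co j h l) (h3 : l ≠ 1) : Pa Z A j k :=
  fun W _ hW h' => ((C.cc hW j).symm.sep (C.anti k) (C.anti j) (C.cm hW j).symm h'.symm (fun x hx =>
    C.inv_mul_mem hx ((C.normal k).conj_mem _ hx h) (by rw [h1 x hx, one_mul])) (C.sep_aux h2 h3)).symm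

theorem pa_add {b c : E} {l : K} (h1 : Ac A co j b l) (h2 : Ac A co j c (1 + l)) (h3 : Ac A co k b l)
    (h4 : Ac A co k c (1 + l)) (h5 : l ≠ 0) (h6 : 1 + (l⁻¹ + l) ≠ 0) : Pa Z A j k := fun W _ hW h' => by
  have n := fun k g x hx => (C.normal k).conj_mem x hx g
  have a : ∀ {k}, Ac A co k b l → Ac A co k c (1 + l) → ∀ x ∈ A k,
      (1 * x * 1⁻¹ * (b * x * b⁻¹))⁻¹ * (c * x * c⁻¹) ∈ A (k + 1) := fun {k} h1 h2 x hx =>
    C.inv_mul_mem (mul_mem (n _ _ _ hx) (n _ _ _ hx)) (n _ _ _ hx) (by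
      rw [C.add k _ (n _ _ _ hx) _ (n _ _ _ hx), h1 x hx, h2 x hx, one_mul, inv_one, mul_one, add_mul, one_mul])
  refine (C.cc hW j).add (C.anti j) (C.anti k) h' (C.cm hW j) (n j) (n k) (a h1 h2) (a h3 h4)
    (C.surj h6 fun y hy => ⟨mul_mem hy (mul_mem (n _ _ _ hy) (n _ _ _ hy)), ?_⟩)
  rw [C.add k _ hy _ (mul_mem (n _ _ _ hy) (n _ _ _ hy)), C.add k _ (n _ _ _ hy) _ (n _ _ _ hy), mul_one, inv_one,
    one_mul, C.ac_inv h3 h5 y hy, h3 y hy]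
  ring

theorem pa_add' (hK : 4 < Nat.card K) (h : ∀ l : K, l ≠ 0 → ∃ h, Ac A co j h l ∧ Ac A co k h l) : Pa Z A j k := by
  classical
  have := Fintype.ofFinite K
  obtain ⟨l, -, hl⟩ := Finset.exists_mem_notMem_of_card_lt_card (s := (Polynomial.X * (1 + Polynomial.X) *
    (Polynomial.X ^ 2 + Polynomial.X + 1 : Polynomial K)).roots.toFinset) (t := Finset.univ) (by
      refine ((Multiset.toFinset_card_le _).trans ((Polynomial.card_roots' _).trans ?_)).trans_lt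
        (hK.trans_eq Nat.card_eq_fintype_card)
      compute_degree)
  rw [Multiset.mem_toFinset, Polynomial.mem_roots (Polynomial.Monic.ne_zero (by monicity!))] at hl
  simp only [Polynomial.IsRoot.def, Polynomial.eval_mul, Polynomial.eval_add, Polynomial.eval_pow, Polynomial.eval_X,
    Polynomial.eval_one, mul_eq_zero, not_or] at hl
  obtain ⟨b, b1, b2⟩ := h l hl.1.1
  obtain ⟨c, c1, c2⟩ := h _ hl.1.2
  exact C.pa_add b1 c1 b2 c2 hl.1.1 fun e => hl.2 (by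
    have := hl.1.1
    rw [show l ^ 2 + l + 1 = l * (1 + (l⁻¹ + l)) by field_simp; ring, e, mul_zero])

variable {ι P : Type*} {L : List ι} {v : ι → ℕ → P} {f : P → Kˣ →* Kˣ} {n : ℕ}
  (act : ∀ M ∈ L, ∀ c, ∃ g ∈ T, ∀ k ≤ n, Ac A co k g (f (v M k) c)) (hj : j ≤ n) (hk : k ≤ n)
include act hk

omit C in
theorem tr_cert {B : P → Prop} (hB : ∀ e, B e → ∀ c, f e c = 1 → c = 1) (h : ∃ M ∈ L, B (v M k)) (l : K)
    (hl : l ≠ 0) : ∃ g ∈ T, Ac A co k g l := by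
  obtain ⟨M, a1, a2⟩ := h
  obtain ⟨c, e⟩ := Finite.surjective_of_injective ((injective_iff_map_eq_one _).2 (hB _ a2)) (Units.mk0 l hl)
  obtain ⟨g, b1, b2⟩ := act M a1 c
  exact ⟨g, b1, by simpa [e] using b2 k hk⟩

omit C [Finite K] in
theorem nz_cert {N : P → Prop} {c : Kˣ} (hN : ∀ e, N e → f e c ≠ 1) (h : ∃ M ∈ L, N (v M k)) :
    ∃ h ∈ T, ∃ l, l ≠ 1 ∧ Ac A co k h l := by
  obtain ⟨M, a1, a2⟩ := h
  obtain ⟨g, b1, b2⟩ := act M a1 c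
  exact ⟨g, b1, _, Units.val_eq_one.not.2 (hN _ a2), b2 k hk⟩

include hj in
theorem pa_cert {O N : P → Prop} {c : Kˣ} (hO : ∀ e, O e → f e c = 1) (hN : ∀ e, N e → f e c ≠ 1)
    (h : ∃ M ∈ L, O (v M j) ∧ N (v M k) ∨ O (v M k) ∧ N (v M j)) : Pa Z A j k := by
  obtain ⟨M, a1, a2⟩ := h
  obtain ⟨g, -, b⟩ := act M a1 c
  rcases a2 with ⟨a2, a3⟩ | ⟨a2, a3⟩
  · exact C.pa_sep (by simpa [hO _ a2] using b j hj) (b k hk) (Units.val_eq_one.not.2 (hN _ a3))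
  · exact C.pa_sep' (by simpa [hO _ a2] using b k hk) (b j hj) (Units.val_eq_one.not.2 (hN _ a3))

end Ch

end Cfsg.Agent.TwM
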