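import Mathlib.GroupTheory.Commutator.Basic
import Mathlib.GroupTheory.QuotientGroup.Defs
import Mathlib.Tactic.Group
/-! Commutator pairings modulo a normal subgroup (`Cm`, `Cc`) and the extension of complements (`exists_compl`). -/

set_option autoImplicit false

namespace Cfsg.Agent.TwM

open scoped commutatorElement

variable {E M : Type*} [Group E] [Group M] (q : E →* M)

/-- The images commute. -/
def Cm (P Q : Subgroup E) : Prop := ∀ x ∈ P, ∀ y ∈ Q, q ⁅x, y⁆ = 1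

/-- The commutators of the images are central. -/
def Cc (P Q : Subgroup E) : Prop := ∀ x ∈ P, ∀ y ∈ Q, ∀ g, q g * q ⁅x, y⁆ = q ⁅x, y⁆ * q g

variable {q} {P P' Q Q' : Subgroup E}

theorem Cm.symm (h : Cm q P Q) : Cm q Q P := fun x hx y hy => by
  rw [← commutatorElement_inv, map_inv, h y hy x hx, inv_one]

theorem Cc.symm (h : Cc q P Q) : Cc q Q P := fun x hx y hy g => by
  rw [← commutatorElement_inv, map_inv]; exact (Commute.inv_right (h y hy x hx g)).eq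

theorem Cm.mono (h : Cm q P Q) (h1 : P' ≤ P) (h2 : Q' ≤ Q) : Cm q P' Q' := fun x hx y hy => h x (h1 hx) y (h2 hy)

theorem Cc.mono (h : Cc q P Q) (h1 : P' ≤ P) (h2 : Q' ≤ Q) : Cc q P' Q' := fun x hx y hy => h x (h1 hx) y (h2 hy)

theorem Cc.left (h : Cc q P Q) (x : E) {x' y : E} (h1 : x' ∈ P) (h2 : y ∈ Q) :
    q ⁅x * x', y⁆ = q ⁅x', y⁆ * q ⁅x, y⁆ := by
  rw [show ⁅x * x', y⁆ = x * ⁅x', y⁆ * x⁻¹ * ⁅x, y⁆ by simp only [commutatorElement_def]; group, map_mul, map_mul,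
    map_mul, h _ h1 _ h2, map_inv, mul_inv_cancel_right]

theorem Cc.right (h : Cc q P Q) (y : E) {x y' : E} (h1 : x ∈ P) (h2 : y' ∈ Q) :
    q ⁅x, y * y'⁆ = q ⁅x, y⁆ * q ⁅x, y'⁆ := by
  rw [show ⁅x, y * y'⁆ = ⁅x, y⁆ * (y * ⁅x, y'⁆ * y⁻¹) by simp only [commutatorElement_def]; group, map_mul, map_mul,
    map_mul, h _ h1 _ h2, map_inv, mul_inv_cancel_right]

theorem Cc.conj (h : Cc q P Q) (g : E) {x y : E} (h1 : x ∈ P) (h2 : y ∈ Q) :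
    q ⁅g * x * g⁻¹, g * y * g⁻¹⁆ = q ⁅x, y⁆ := by
  rw [← conjugate_commutatorElement, map_mul, map_mul, h _ h1 _ h2, map_inv, mul_inv_cancel_right]

theorem Cc.of_mod (hc : Cc q P' Q') (hP : P ≤ P') (h1 : Cm q P Q') {x x' y : E} (hy : y ∈ Q') (e : x⁻¹ * x' ∈ P) :
    q ⁅x', y⁆ = q ⁅x, y⁆ := by
  rw [← mul_inv_cancel_left x x', hc.left _ (hP e) hy, h1 _ e _ hy, one_mul]

theorem Cc.of_mod' (hc : Cc q P' Q') (hQ : Q ≤ Q') (h2 : Cm q P' Q) {x y y' : E} (hx : x ∈ P') (e : y⁻¹ * y' ∈ Q) :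
    q ⁅x, y'⁆ = q ⁅x, y⁆ := by
  rw [← mul_inv_cancel_left y y', hc.right _ hx (hQ e), h2 _ hx _ e, mul_one]

theorem Cc.comm (hc : Cc q P' Q') {a b y : E} (ha : a ∈ P') (hb : b ∈ P') (hy : y ∈ Q') : q ⁅⁅a, b⁆, y⁆ = 1 := by
  have h1 := hc.left ⁅a, b⁆ (mul_mem hb ha) hy
  rw [show ⁅a, b⁆ * (b * a) = a * b by simp only [commutatorElement_def]; group, hc.left _ hb hy, hc.left _ ha hy,
    hc _ ha _ hy] at h1
  exact mul_eq_left.1 h1.symm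

theorem Cc.sep (hc : Cc q P' Q') (hP : P ≤ P') (hQ : Q ≤ Q') (h1 : Cm q P Q') (h2 : Cm q P' Q) {h : E}
    (h3 : ∀ x ∈ P', x⁻¹ * (h * x * h⁻¹) ∈ P)
    (h4 : ∀ y ∈ Q', ∃ y' ∈ Q', h * y' * h⁻¹ ∈ Q' ∧ (h * y' * h⁻¹ * y'⁻¹)⁻¹ * y ∈ Q) : Cm q P' Q' := fun x hx y hy => by
  obtain ⟨y', a1, a2, a3⟩ := h4 y hy
  rw [hc.of_mod' hQ h2 hx a3, hc.right _ hx (inv_mem a1), ← hc.of_mod hP h1 a2 (h3 x hx), hc.conj _ hx a1,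
    ← hc.right _ hx (inv_mem a1)]
  simp

theorem Cc.add (hc : Cc q P' Q') (hP : P ≤ P') (hQ : Q ≤ Q') (h1 : Cm q P Q') (h2 : Cm q P' Q) {a b c : E}
    (nP : ∀ g, ∀ x ∈ P', g * x * g⁻¹ ∈ P') (nQ : ∀ g, ∀ x ∈ Q', g * x * g⁻¹ ∈ Q')
    (h3 : ∀ x ∈ P', (a * x * a⁻¹ * (b * x * b⁻¹))⁻¹ * (c * x * c⁻¹) ∈ P)
    (h4 : ∀ x ∈ Q', (a * x * a⁻¹ * (b * x * b⁻¹))⁻¹ * (c * x * c⁻¹) ∈ Q)
    (h5 : ∀ y ∈ Q', ∃ y' ∈ Q', (y' * (b⁻¹ * a * y' * (b⁻¹ * a)⁻¹ * (a⁻¹ * b * y' * (a⁻¹ * b)⁻¹)))⁻¹ * y ∈ Q) :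
    Cm q P' Q' := fun x hx y hy => by
  obtain ⟨y, hy, a3⟩ := h5 y hy
  have e := hc.conj c hx hy
  have k : ∀ a b, q ⁅a * x * a⁻¹, b * y * b⁻¹⁆ = q ⁅x, a⁻¹ * b * y * (a⁻¹ * b)⁻¹⁆ := fun a b => by
    rw [← hc.conj a hx (nQ _ _ hy)]; congr 2; group
  rw [hc.of_mod hP h1 (nQ _ _ hy) (h3 x hx), hc.of_mod' hQ h2 (mul_mem (nP _ _ hx) (nP _ _ hx)) (h4 y hy),
    hc.left _ (nP _ _ hx) (mul_mem (nQ _ _ hy) (nQ _ _ hy)), hc.right _ (nP _ _ hx) (nQ _ _ hy),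
    hc.right _ (nP _ _ hx) (nQ _ _ hy), hc.conj _ hx hy, hc.conj _ hx hy, k, k] at e
  rw [hc.of_mod' hQ h2 hx a3, hc.right _ hx (mul_mem (nQ _ _ hy) (nQ _ _ hy)), hc.right _ hx (nQ _ _ hy)]
  have c1 := hc x hx y hy ⁅x, b⁻¹ * a * y * (b⁻¹ * a)⁻¹⁆
  have c2 := hc x hx y hy ⁅x, a⁻¹ * b * y * (a⁻¹ * b)⁻¹⁆
  generalize q ⁅x, b⁻¹ * a * y * (b⁻¹ * a)⁻¹⁆ = f1 at e c1 ⊢
  generalize q ⁅x, a⁻¹ * b * y * (a⁻¹ * b)⁻¹⁆ = f2 at e c2 ⊢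
  generalize q ⁅x, y⁆ = f at e c1 c2 ⊢
  rw [← c2, ← mul_assoc, mul_eq_right] at e
  rw [← mul_assoc, ← c1, e]

/-- `W` is a normal complement of `Z` in `A`. -/
structure Cpl (Z A W : Subgroup E) : Prop where
  normal : W.Normal
  disj : ∀ z ∈ Z, z ∈ W → z = 1
  le : W ≤ A
  dec : ∀ x ∈ A, ∃ z ∈ Z, x * z ∈ W

theorem Cpl.cm {Z A W : Subgroup E} [W.Normal] (h : Cpl Z A W) (hZ : Z ≤ Subgroup.center E) :
    Cm (QuotientGroup.mk' W) A ⊤ := fun x hx y _ => by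
  obtain ⟨z, h1, h2⟩ := h.dec x hx
  rw [map_commutatorElement, commutatorElement_eq_one_iff_mul_comm,
    show QuotientGroup.mk' W x = QuotientGroup.mk' W z⁻¹ by
      rw [map_inv, eq_inv_iff_mul_eq_one, ← map_mul]; exact (QuotientGroup.eq_one_iff _).2 h2,
    ← map_mul, ← map_mul, Subgroup.mem_center_iff.1 (hZ (inv_mem h1))]

theorem exists_compl {Z A A' U W : Subgroup E} [W.Normal] [hA : A'.Normal] (hW : Cpl Z A W)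
    (hZ : Z ≤ Subgroup.center E) (h0 : Z ≤ A) (h1 : A ≤ A') (h2 : A' ≤ U) (hc : Cm (QuotientGroup.mk' W) U A') {h : E}
    (h3 : ∀ g, ∃ u ∈ U, ∃ t, ⁅t, h⁆ ∈ Z ∧ g = u * t) (h4 : ∀ y ∈ A', ⁅h, y⁆ ∈ A → y ∈ A)
    (h5 : ∀ y ∈ A', ∃ y' ∈ A', ⁅h, y'⁆⁻¹ * y ∈ A) : ∃ W', Cpl Z A' W' ∧ W ≤ W' := by
  set q := QuotientGroup.mk' W
  have a0 : ∀ {x}, q x = 1 ↔ x ∈ W := QuotientGroup.eq_one_iff _
  have a1 : ∀ {y}, y ∈ A' → ⁅h, y⁆ ∈ A' := fun hy => mul_mem (hA.conj_mem _ hy h) (inv_mem hy)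
  have a2 : ∀ {x y}, x ∈ U → y ∈ A' → q x * q y = q y * q x := fun hx hy => by
    rw [← commutatorElement_eq_one_iff_mul_comm, ← map_commutatorElement]; exact hc _ hx _ hy
  have a3 : ∀ {y y'}, y ∈ A' → y' ∈ A' → q ⁅h, y * y'⁆ = q ⁅h, y⁆ * q ⁅h, y'⁆ := fun {y y'} hy hy' => by
    rw [show ⁅h, y * y'⁆ = ⁅h, y⁆ * (y * ⁅h, y'⁆ * y⁻¹) by simp only [commutatorElement_def]; group, map_mul,
      map_mul, map_mul, a2 (h2 hy) (a1 hy'), map_inv, mul_inv_cancel_right]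
  let W' : Subgroup E := ⟨⟨⟨{g | ∃ y ∈ A', q g = q ⁅h, y⁆}, fun ⟨y, b1, b2⟩ ⟨y', b3, b4⟩ =>
    ⟨_, mul_mem b1 b3, by rw [map_mul, b2, b4, a3 b1 b3]⟩⟩, 1, one_mem _, by simp⟩, fun ⟨y, b1, b2⟩ =>
    ⟨_, inv_mem b1, by rw [map_inv, b2, inv_eq_iff_mul_eq_one, ← a3 b1 (inv_mem b1)]; simp⟩⟩
  have a4 : ∀ {g y}, y ∈ A' → q g = q ⁅h, y⁆ → ⁅h, y⁆⁻¹ * g ∈ W := fun _ e =>
    a0.1 (by rw [map_mul, map_inv, e, inv_mul_cancel])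
  have a5 : W' ≤ A' := fun g ⟨y, b1, b2⟩ => by
    simpa only [mul_inv_cancel_left] using mul_mem (a1 b1) (h1 (hW.le (a4 b1 b2)))
  refine ⟨W', ⟨⟨fun x hx g => ?_⟩, fun z hz ⟨y, b1, b2⟩ => ?_, a5, fun x hx => ?_⟩,
    fun x hx => ⟨1, one_mem _, by simpa using a0.2 hx⟩⟩
  · obtain ⟨u, b1, t, b2, rfl⟩ := h3 g
    obtain ⟨y, b3, b4⟩ := hx
    have b5 : t * ⁅h, y⁆ * t⁻¹ = ⁅h, t * y * t⁻¹⁆ := by
      have := Subgroup.mem_center_iff.1 (hZ b2)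
      rw [conjugate_commutatorElement, show t * h * t⁻¹ = ⁅t, h⁆ * h by simp [commutatorElement_def]]
      generalize ⁅t, h⁆ = z at this
      rw [show ⁅z * h, t * y * t⁻¹⁆ = z * (h * (t * y * t⁻¹) * h⁻¹) * z⁻¹ * (t * y * t⁻¹)⁻¹ by
        simp only [commutatorElement_def]; group, ← this, mul_inv_cancel_right]; rfl
    refine ⟨_, hA.conj_mem _ b3 t, ?_⟩
    rw [← b5, show u * t * x * (u * t)⁻¹ = u * (t * x * t⁻¹) * u⁻¹ by group, map_mul, map_mul,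
      a2 b1 (hA.conj_mem _ (a5 ⟨y, b3, b4⟩) t), map_inv, mul_inv_cancel_right]
    simp only [map_mul, b4]
  · have b3 := h4 y b1 (by
      simpa only [mul_inv_rev, inv_inv, mul_inv_cancel_left] using mul_mem (h0 hz) (inv_mem (hW.le (a4 b1 b2))))
    exact hW.disj z hz (a0.1 (b2.trans ((hW.cm hZ).symm _ trivial _ b3)))
  · obtain ⟨y, b1, b2⟩ := h5 x hx
    obtain ⟨z, b3, b4⟩ := hW.dec _ b2
    exact ⟨z, b3, y, b1, by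
      have := a0.2 b4
      rw [mul_assoc, map_mul, map_inv, inv_mul_eq_one] at this
      exact this.symm⟩

end Cfsg.Agent.TwM
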