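import Cfsg.Agent.TwM.Root
/-! Tools for the filtration argument: torus elements given by exponents (`pw`, `St.act`), fixed roots
(`St.pa_long`), collection of words in characteristic two (`run`). -/

set_option autoImplicit false

namespace Cfsg.Agent.TwM

open Cfsg.Lie Cfsg.Agent.Chev Cfsg.Agent.Chev.Sys Cfsg.Agent.ChAut
open scoped commutatorElement

variable {D : ChevalleyDatum} [Good D] {K : Type*} [Field K] {G E : Type*} [Group G] [Group E]

/-- Exponents. -/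
abbrev Z3 := ℤ × ℤ × ℤ

/-- A twisted power map. -/
def pw (ψ : Kˣ →* Kˣ) (e : Z3) : Kˣ →* Kˣ where
  toFun c := c ^ e.1 * (ψ c ^ e.2.1 * ψ (ψ c) ^ e.2.2)
  map_one' := by simp
  map_mul' a b := by simp only [map_mul, mul_zpow]; ac_rfl

theorem pw_apply (ψ : Kˣ →* Kˣ) (e : Z3) (c : Kˣ) : pw ψ e c = c ^ e.1 * (ψ c ^ e.2.1 * ψ (ψ c) ^ e.2.2) := rfl

/-- The exponent of a twisted power map. -/
def vl (q : ℕ) (e : Z3) : ℤ := e.1 + q * (e.2.1 + q * e.2.2)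

theorem pw_eq {ψ : Kˣ →* Kˣ} {q : ℕ} (h : ∀ c, ψ c = c ^ q) (e : Z3) (c : Kˣ) : pw ψ e c = c ^ vl q e := by
  simp only [pw_apply, vl, h, zpow_add, zpow_mul, zpow_natCast]

/-- The exponents of a root. -/
def ex (M : List Z3) (r : Rt D) : Z3 := ∑ i : Sm D, car i r • M.getD i 0

omit [Good D] in
theorem chi_pw (ψ : Kˣ →* Kˣ) (M : List Z3) (c : Kˣ) (r : Rt D) :
    chi (fun i : Sm D => pw ψ (M.getD i 0) c) r = pw ψ (ex M r) c := by
  have h : ∀ (c : Kˣ) (f : Sm D → ℤ), c ^ ∑ i, f i = ∏ i, c ^ f i := fun c f =>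
    _root_.map_prod (zpowersHom Kˣ c) (fun i => Multiplicative.ofAdd (f i)) Finset.univ
  simp only [chi, ex, pw_apply, Prod.fst_sum, Prod.snd_sum, Prod.smul_fst, Prod.smul_snd, smul_eq_mul, mul_zpow,
    ← zpow_mul, Finset.prod_mul_distrib, h, mul_comm (car _ r)]

theorem exists_nz [Finite K] : ∃ c : Kˣ, ∀ v : ℤ, c ^ v = 1 ↔ ((Nat.card K : ℤ) - 1) ∣ v := by
  obtain ⟨c, hc⟩ := IsCyclic.exists_ofOrder_eq_natCard (α := Kˣ)
  exact ⟨c, fun v => by rw [← orderOf_dvd_iff_zpow_eq_one, hc, Nat.card_units, Nat.cast_pred Nat.card_pos]⟩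

theorem nz_small {q : ℕ} {N : ℤ} (hq : 1 < q) {e : Z3} (h : q * q * |e.2.2| + q + 1 < N) (h1 : e ≠ 0)
    (h2 : |e.1| ≤ 1 ∧ |e.2.1| ≤ 1 ∧ |e.2.2| ≤ 1) : ¬ N ∣ vl q e := fun a => by
  obtain ⟨k, l, n⟩ := e
  simp only [abs_le, Ne, Prod.mk_eq_zero] at h1 h2
  obtain ⟨⟨a1, a2⟩, ⟨a3, a4⟩, a5, a6⟩ := h2
  have := Int.eq_zero_of_abs_lt_dvd a
  have a7 : 2 * (q : ℤ) ≤ q * q := by nlinarith
  simp only [vl, abs_lt, mul_add, ← mul_assoc] at this
  generalize (q : ℤ) * q = Q at *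
  interval_cases l <;> interval_cases n <;> simp only [abs_neg, abs_one, abs_zero] at h <;> omega

variable (X : Sys D K G)

/-- A word with all coefficients equal to one. -/
def gw (w : List ℕ) : G := (w.map (X.xN · 1)).prod

theorem gw_eq (w : List ℕ) : gw X w = gword X.x (w.map (·, 1)) := by
  induction w with
  | nil => rfl
  | cons r w ih => rw [List.map_cons, gword_cons', ← ih]; rfl

theorem gw_append (w w' : List ℕ) : gw X (w ++ w') = gw X w * gw X w' := by simp [gw]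

variable (D) in
/-- One step of collection. -/
def stp : List ℕ → ℕ → List ℕ
  | s :: r :: w, 0 => if s = r then w else if r < D.nroots ∧ s < D.nroots ∧ s ≠ D.neg r then
      r :: s :: ((nrm 2 (D.commTerms r s)).map (·.1) ++ w) else s :: r :: w
  | s :: w, i + 1 => s :: stp w i
  | w, _ => w

variable (D) in
/-- Several steps of collection. -/
def run (w l : List ℕ) : List ℕ := l.foldl (stp D) w

variable {X}

section
variable (hp : ((2 : ℕ) : K) = 0)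
include hp

theorem xN_sq (r : ℕ) : X.xN r 1 * X.xN r 1 = 1 := by
  rw [xN_add, one_add_one_eq_two, show (2 : K) = 0 from hp, xN]; simp

theorem gw_stp (w : List ℕ) (i : ℕ) : gw X (stp D w i) = gw X w := by
  fun_induction stp D w i with
  | case1 r w => simp [gw, ← mul_assoc, xN_sq hp]
  | case2 s r w h1 h2 =>
    have e := X.xN_comm hp (L := D.commTerms r s) ⟨h2.1, h2.2.1, h1, h2.2.2, rfl⟩ 1 1
    rw [← gword_nrm X hp] at e
    simp only [gw, List.map_cons, List.prod_cons, List.map_append, List.prod_append, ← mul_assoc, e]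
    congr 2
    refine (gw_eq X _).trans (congrArg _ ?_)
    rw [evT, List.map_map]
    refine List.map_congr_left fun c hc => ?_
    obtain ⟨h3, h4⟩ := List.mem_filter.1 hc
    obtain ⟨c', -, rfl⟩ := List.mem_map.1 h3
    have := ringChar.of_eq (CharP.ringChar_of_prime_eq_zero Nat.prime_two hp)
    simp only [bne_iff_ne] at h4
    simp [show c'.2.1 % 2 = 1 by omega, CharTwo.neg_eq]
  | case3 => rfl
  | case4 s w i ih => simpa [gw] using ih
  | case5 => rfl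

theorem gw_run {w l w' : List ℕ} (h : run D w l = w') : gw X w = gw X w' := by
  subst h
  induction l generalizing w with
  | nil => rfl
  | cons i l ih => exact (gw_stp hp w i).symm.trans ih

theorem gw_inv (w : List ℕ) : (gw X w)⁻¹ = gw X w.reverse := by
  simp only [gw, List.prod_inv_reverse, List.map_map, List.map_reverse]
  exact congrArg (fun l : List G => l.reverse.prod) (List.map_congr_left fun r _ =>
    inv_eq_of_mul_eq_one_right (xN_sq hp r))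

theorem gw_comm {a b l w : List ℕ} (h : run D (a ++ b ++ a.reverse ++ b.reverse) l = w) :
    ⁅gw X a, gw X b⁆ = gw X w := by
  rw [← gw_run hp h, commutatorElement_def, gw_inv hp, gw_inv hp, gw_append, gw_append, gw_append]

end

theorem gw_mem {T : Set (Rt D)} {w : List ℕ} (h : ∀ r : Rt D, (r : ℕ) ∈ w → r ∈ T) : gw X w ∈ X.U T :=
  gw_eq X w ▸ X.gword_mem' (by simp [Function.comp_def]) h

variable {S : Sym D} {p : ℕ} {rk : ℕ → ℕ} {rep : ℕ → Rt D} {n k : ℕ} {Γ : Subgroup G} {τ : E →* G}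

instance instDecidableMemOrb (j k : Sm D) : Decidable (k ∈ S.orb j) := inferInstanceAs (Decidable (S.π.SameCycle j k))

theorem co_gw {r : Rt D} {w : List ℕ} (h : ∀ s : Rt D, (s : ℕ) ∈ w → (Pos s ∧ k ≤ rk s) ∧ s ≠ r) :
    Co X rk r k (gw X (r :: w)) 1 := by
  rw [Co, gw, List.map_cons, List.prod_cons, xN_val, inv_mul_cancel_left]
  exact gw_mem h

theorem Rk.mem_of_co (R : Rk S p rk rep n) (hk : k ≤ n) {g : E} {t : K} (h : Co X rk (rep k) k (τ g) t) :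
    g ∈ AA X rk τ k := by
  simpa [AA] using mul_mem (X.x_mem_U (S := AS rk k) ⟨(R.rp k hk).1, (R.rp k hk).2.ge⟩ t) (X.U_mono Set.sdiff_subset h)

theorem Rk.cf_eq' (R : Rk S p rk rep n) (c : X.Cover) (hk : k ≤ n) {g : E} {t : K} (h : Co X rk (rep k) k (τ g) t) :
    cf X rk rep n τ k g = t := R.cf_eq c (by rwa [min_eq_left hk])

theorem Rk.not_mem (R : Rk S p rk rep n) (c : X.Cover) (hk : k ≤ n) {g : E} {t : K} (h : Co X rk (rep k) k (τ g) t)
    (ht : t ≠ 0) : g ∉ AA X rk τ (k + 1) := fun e =>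
  ht ((R.cf_eq' c hk h).symm.trans (R.cf_eq c (by simpa [Co] using X.U_mono (R.rp' k).2 e)))

theorem Rk.cpl_top (R : Rk S p rk rep n) : Cpl τ.ker (AA X rk τ (n + 1)) ⊥ := Ch.cpl_bot fun g hg => by
  rwa [AA, show AS rk (n + 1) = ∅ from Set.eq_empty_of_forall_notMem fun r hr => (R.le r hr.1).not_gt hr.2, U_empty]
    at hg

theorem St.exists_rB (s : St Γ τ) {y : G} (h1 : y ∈ X.UP) (h2 : y ∈ Γ) : ∃ g, rB X τ g = y :=
  (s.surj y h2).elim fun g e => ⟨⟨g, (e ▸ X.UP_le_B h1 : τ g ∈ _)⟩, e⟩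

theorem St.comm_congr (s : St Γ τ) {a a' b b' : E} (h1 : τ a = τ a') (h2 : τ b = τ b') : ⁅a, b⁆ = ⁅a', b'⁆ := by
  have e1 := Subgroup.mem_center_iff.1 (s.cent (show τ (a⁻¹ * a') = 1 by simp [h1]))
  have e2 := Subgroup.mem_center_iff.1 (s.cent (show τ (b⁻¹ * b') = 1 by simp [h2]))
  rw [← mul_inv_cancel_left a a', ← mul_inv_cancel_left b b']
  generalize a⁻¹ * a' = z at e1
  generalize b⁻¹ * b' = z' at e2
  rw [commutatorElement_def, commutatorElement_def, show a * z * (b * z') * (a * z)⁻¹ * (b * z')⁻¹ =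
    a * (z * (b * z') * z⁻¹) * a⁻¹ * z'⁻¹ * b⁻¹ by group, ← e1, mul_inv_cancel_right, ← mul_assoc a, mul_assoc _ z',
    ← e2, ← mul_assoc, mul_inv_cancel_right]

variable [Conn D] {α : X.Aut S} (s : St Γ τ) (h : α.Gen Γ) (c : X.Cover) (m : X.Mult) (R : Rk S p rk rep n)
  (hp : (p : K) = 0)
include s c R hp

theorem St.act {ψ : Kˣ →* Kˣ} {L : List (List Z3)} (hL : ∀ M ∈ L, ∀ a, m.tor (fun i => pw ψ (M.getD i 0) a) ∈ Γ) :
    ∀ M ∈ L, ∀ a, ∃ g ∈ X.H.comap (rB X τ), ∀ k ≤ n,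
      Ac (AA X rk (rB X τ)) (cf X rk rep n (rB X τ)) k g (pw ψ (ex M (rep k)) a) := fun M hM a => by
  simpa only [chi_pw] using s.ac c m R hp (hL M hM a)

include h

omit [Conn D] in
theorem St.x_mem (hk : k ≤ n) (h1 : S.ρ (rep k) = rep k) {g : X.B.comap τ} (hg : g ∈ AA X rk (rB X τ) k) :
    X.x (rep k) (cf X rk rep n (rB X τ) k g) ∈ Γ := by
  have a := R.co_σ α (R.cf_spec hp hg)
  rw [min_eq_left hk, h1, show α.σ (rB X τ g) = rB X τ g from h.le (s.mem _)] at a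
  exact h.UP_le ⟨X.x_mem_U (R.rp k hk).1 _, Aut.mem_fix.2 (by rw [α.σ_x, h1, ← R.cf_eq' c hk a])⟩

omit [Conn D] in
theorem St.rep_fix (hk : k ≤ n) (h1 : S.ρ (rep k) = rep k) : ∀ g ∈ AA X rk (rB X τ) k, ∃ g' ∈ AA X rk (rB X τ) k,
    cf X rk rep n (rB X τ) k g' = cf X rk rep n (rB X τ) k g ∧ ∃ t, τ g' = X.x (rep k) t := fun g hg => by
  obtain ⟨g', e⟩ := s.exists_rB (X.x_mem_U (R.rp k hk).1 _) (s.x_mem h c R hp hk h1 hg)
  have a : Co X rk (rep k) k (rB X τ g') (cf X rk rep n (rB X τ) k g) := by simp [Co, e]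
  exact ⟨g', R.mem_of_co hk a, R.cf_eq' c hk a, _, e⟩

include m

theorem St.pa_fix {j : ℕ} (hj : j ≤ n) (hk : k ≤ n) (h1 : S.ρ (rep j) = rep j) (h2 : S.ρ (rep k) = rep k)
    (h3 : ∀ t u, X.x (rep j) t ∈ Γ → X.x (rep k) u ∈ Γ → ∃ a ∈ Γ, ∃ b ∈ Γ, X.x (rep j) t = ⁅a, b⁆ ∧
      Commute a (X.x (rep k) u) ∧ Commute b (X.x (rep k) u)) : Pa (rB X τ).ker (AA X rk (rB X τ)) j k :=
  fun W _ hW => (s.ch h c m R hp).pr_rep hW (s.rep_fix h c R hp hj h1) (s.rep_fix h c R hp hk h2) (by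
    rintro - x y ⟨t, e⟩ ⟨u, e'⟩
    obtain ⟨_, a1, _, b1, a2, a3, a4⟩ := h3 t u (e ▸ s.mem _) (e' ▸ s.mem _)
    obtain ⟨a, rfl⟩ := s.surj _ a1
    obtain ⟨b, rfl⟩ := s.surj _ b1
    rw [show ⁅x, y⁆ = 1 from Subtype.ext (s.comm_eq_one (e' ▸ a3) (e' ▸ a4) (e.trans a2))]
    exact one_mem _)

omit s m R hp in
theorem PL.torOk_ad (hX : X.U Set.univ = ⊤) {m : X.Mult} (hi : Function.Injective m.tor) {V : Subgroup E}
    (L : PL X Γ τ V) {F : Type*} [Field F] [Finite F] {l : List (Sm D × (F →+* K))} {i : Sm D}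
    (N : LN (adS D K) S (Γ.map c.π) i l) (he : ∀ t, eL X l t ∈ Γ ∧ fL X l t ∈ Γ) : TorOk τ V S m i :=
  L.torOk_LN h.fold c ⟨N.orb, N.w1, N.orth, fun t => (he t).1, fun t => (he t).2,
    (h.fold.card_map_U c hX fun _ h => h.1).symm.trans N.card, N.ne⟩ hi fun p hp =>
      inJ_sm.1 ((N.orb.1.2.2 (sm p.1)).1 (List.mem_map_of_mem hp)).2

omit s c m R h [Conn D]

variable (D) in
/-- The root `r` is a sum of roots `a, b` commuting with `s`, all of them fixed. -/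
def Lg (T : TwD) (r s a b : ℕ) : Prop := T.Mv D r r 1 ∧ T.Mv D a a 1 ∧ T.Mv D b b 1 ∧
  (CommIs D T.p a b [(r, 1, 1, 1)] ∨ CommIs D T.p a b [(r, -1, 1, 1)]) ∧ CommIs D T.p s a [] ∧ CommIs D T.p s b []

instance instDecidableLg (T : TwD) (r s a b : ℕ) : Decidable (Lg D T r s a b) := by unfold Lg; infer_instance

omit hp in
theorem lg_comm {T : TwD} (hT : T.Ok D D) {hS : ∀ r, (S.ρ r : ℕ) = T.ι r} {hp : (T.p : K) = 0} {φ : K →+* K}
    {Γ : Subgroup (D.SteinbergGroup K)} (h : (hT.autSt S hS hp φ).Gen Γ) (c : (stS D K).Cover) {r s : Rt D} {a b : ℕ}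
    (l : Lg D T r s a b) (t u : K) (ht : (stS D K).x r t ∈ Γ) : ∃ y ∈ Γ, ∃ z ∈ Γ, (stS D K).x r t = ⁅y, z⁆ ∧
      Commute y ((stS D K).x s u) ∧ Commute z ((stS D K).x s u) := by
  obtain ⟨l1, l2, l3, l4, l5, l6⟩ := l
  have a1 : φ t = t := by
    have := hT.σ_xN hS hp φ l1 t
    rw [xN_val, xN_val, pow_one, Aut.mem_fix.1 (h.le ht)] at this
    exact sub_eq_zero.1 (c.x_eq_one (by rw [sub_eq_add_neg, Sys.add, ← this, x_neg]; simp))
  have a2 : ∀ {a v}, T.Mv D a a 1 → φ v = v → (stS D K).xN a v ∈ Γ := fun {a v} l e => by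
    have a3 : (stS D K).xN a v ∈ (hT.autSt S hS hp φ).fix := Aut.mem_fix.2 (by rw [hT.σ_xN hS hp φ l, e, pow_one])
    rw [show (stS D K).xN a v = (stS D K).x ⟨a, l.1⟩ v from xN_val _ ⟨a, l.1⟩ v] at a3 ⊢
    by_cases e : Pos ⟨a, l.1⟩
    exacts [h.UP_le ⟨x_mem_U _ e _, a3⟩, h.UN_le ⟨x_mem_U _ e _, a3⟩]
  have a3 := (stS D K).xN_commute hp l5 u
  have a4 := (stS D K).xN_commute hp l6 u
  rw [xN_val] at a3 a4
  have a5 : ∀ (ε : ℤ) v, CommIs D T.p a b [(r, ε, 1, 1)] → φ v = v → ε * -v = t → ∃ y ∈ Γ, ∃ z ∈ Γ,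
      (stS D K).x r t = ⁅y, z⁆ ∧ Commute y ((stS D K).x s u) ∧ Commute z ((stS D K).x s u) := fun ε v l e e' =>
    ⟨_, inv_mem (a2 l3 (map_one φ)), _, inv_mem (a2 l2 e), by
      rw [commutatorElement_def, inv_inv, inv_inv, mul_assoc, (stS D K).xN_comm hp l v 1]
      simp [evT, gword_cons, ← e', mul_assoc], (a4 1).inv_left, (a3 v).inv_left⟩
  exact l4.elim (fun l => a5 1 (-t) l (by simp [a1]) (by simp)) fun l => a5 (-1) t l a1 (by simp)

variable (S) in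
/-- A certificate for a pair of factors. -/
def Ct (T : TwD) (rep : ℕ → Rt D) (L : List (List Z3)) (O N B : Z3 → Prop) (a b : ℕ → ℕ) (j k : ℕ) : Prop :=
  (∃ M ∈ L, O (ex M (rep j)) ∧ N (ex M (rep k)) ∨ O (ex M (rep k)) ∧ N (ex M (rep j))) ∨
    j = k ∧ ((∃ M ∈ L, B (ex M (rep k))) ∨ S.ρ (rep k) = rep k ∧ Lg D T (rep k) (rep k) (a k) (b k))

instance instDecidableCt (T : TwD) (rep : ℕ → Rt D) (L : List (List Z3)) (O N B : Z3 → Prop) [DecidablePred O]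
    [DecidablePred N] [DecidablePred B] (a b : ℕ → ℕ) (j k : ℕ) : Decidable (Ct S T rep L O N B a b j k) := by
  unfold Ct; infer_instance

omit hp in
theorem St.pa_ct [Conn D] [Finite K] {T : TwD} {hT : T.Ok D D} {hS : ∀ r, (S.ρ r : ℕ) = T.ι r} {hp : (T.p : K) = 0}
    {φ : K →+* K} {Γ : Subgroup (D.SteinbergGroup K)} {τ : E →* D.SteinbergGroup K} (s : St Γ τ)
    (h : (hT.autSt S hS hp φ).Gen Γ) (R : Rk S p rk rep n) (hp' : (p : K) = 0) (hK : 4 < Nat.card K) {ψ : Kˣ →* Kˣ}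
    {L : List (List Z3)} (hL : ∀ M ∈ L, ∀ a, (stS_mult D K).tor (fun i => pw ψ (M.getD i 0) a) ∈ Γ)
    {O N B : Z3 → Prop} {c : Kˣ} (hO : ∀ e, O e → pw ψ e c = 1) (hN : ∀ e, N e → pw ψ e c ≠ 1)
    (hB : ∀ e, B e → ∀ c, pw ψ e c = 1 → c = 1) {a b : ℕ → ℕ} {j : ℕ} (hj : j ≤ n) (hk : k ≤ n)
    (e : Ct S T rep L O N B a b j k) : Pa (rB (stS D K) τ).ker (AA (stS D K) rk (rB (stS D K) τ)) j k := by
  have C := s.ch h (stCover D K) (stS_mult D K) R hp'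
  have act := s.act (stCover D K) (stS_mult D K) R hp' hL
  rcases e with e | ⟨rfl, e | ⟨e, e'⟩⟩
  · exact C.pa_cert act hj hk hO hN e
  · exact C.pa_add' hK fun l hl => (Ch.tr_cert act hk hB e l hl).imp fun _ h => ⟨h.2, h.2⟩
  · exact s.pa_fix h (stCover D K) (stS_mult D K) R hp' hj hk e e fun t u h1 _ =>
      lg_comm hT h (stCover D K) e' t u h1

end Cfsg.Agent.TwM
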