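import Cfsg.Agent.TwM.Tools
/-! Explicit words in twisted groups of characteristic two (`Wd`, `St.pa_word`). -/

set_option autoImplicit false

namespace Cfsg.Agent.TwM

open Cfsg.Lie Cfsg.Agent.Chev Cfsg.Agent.Chev.Sys Cfsg.Agent.ChAut
open scoped commutatorElement

variable {D : ChevalleyDatum} [Good D] {K : Type*} [Field K] {E : Type*} [Group E] {S : Sym D}

variable (D) in
/-- The word `w` is fixed. -/
def Wd (T : TwD) (w l : List ℕ) : Prop := (∀ r ∈ w, r < D.nroots) ∧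
  ((∀ r : Rt D, (r : ℕ) ∈ w → Pos r) ∨ ∀ r : Rt D, (r : ℕ) ∈ w → ¬ Pos r) ∧ run D (w.map T.ι) l = w

instance instDecidableWd (T : TwD) (w l : List ℕ) : Decidable (Wd D T w l) := by unfold Wd; infer_instance

/-- The word starts with the representative of rank `k`. -/
def Hd (rk : ℕ → ℕ) (rep : ℕ → Rt D) (k : ℕ) (w : List ℕ) : Prop :=
  w.head? = some (rep k) ∧ ∀ s : Rt D, (s : ℕ) ∈ w.tail → (Pos s ∧ k ≤ rk s) ∧ s ≠ rep k

instance instDecidableHd (rk : ℕ → ℕ) (rep : ℕ → Rt D) (k : ℕ) (w : List ℕ) : Decidable (Hd rk rep k w) := by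
  unfold Hd; infer_instance

theorem Hd.co {G : Type*} [Group G] {X : Sys D K G} {rk : ℕ → ℕ} {rep : ℕ → Rt D} {k : ℕ} {w : List ℕ}
    (h : Hd rk rep k w) : Co X rk (rep k) k (gw X w) 1 := by
  rw [← List.cons_head?_tail h.1]; exact co_gw h.2

theorem Ch.two_val {Z T : Subgroup E} {A : ℕ → Subgroup E} {co : ℕ → E → K} (C : Ch Z T A co) {k : ℕ}
    (h : ∀ x ∈ A k, co k x = 0 ∨ co k x = 1) {g : E} (h1 : g ∈ A k) (h2 : g ∉ A (k + 1)) :
    ∀ x ∈ A k, co k x = 0 ∨ co k x = co k g := fun x hx =>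
  (h x hx).imp_right fun e => e.trans ((h g h1).resolve_left fun e => h2 ((C.zero k g h1).1 e)).symm

/-- The extension of the Borel subgroup. -/
abbrev rS (τ : E →* D.SteinbergGroup K) := rB (stS D K) τ

/-- Its filtration. -/
abbrev AB (rk : ℕ → ℕ) (τ : E →* D.SteinbergGroup K) := AA (stS D K) rk (rS τ)

/-- Its coordinates. -/
noncomputable abbrev cB (rk : ℕ → ℕ) (rep : ℕ → Rt D) (n : ℕ) (τ : E →* D.SteinbergGroup K) :=
  cf (stS D K) rk rep n (rS τ)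

/-- Its torus. -/
abbrev TB (τ : E →* D.SteinbergGroup K) := (stS D K).H.comap (rS τ)

variable {T : TwD} {hT : T.Ok D D} {hS : ∀ r, (S.ρ r : ℕ) = T.ι r} {hp : (T.p : K) = 0} {φ : K →+* K}
  {Γ : Subgroup (D.SteinbergGroup K)} (h : (hT.autSt S hS hp φ).Gen Γ)
include h

theorem fix_of_mem {r : Rt D} (l : T.Mv D r r 1) {t : K} (ht : (stS D K).x r t ∈ Γ) : φ t = t := by
  have := hT.σ_xN hS hp φ l t
  rw [xN_val, xN_val, pow_one, Aut.mem_fix.1 (h.le ht)] at this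
  exact sub_eq_zero.1 ((stCover D K).x_eq_one (by rw [sub_eq_add_neg, Sys.add, ← this, x_neg]; simp))

variable (h2 : ((2 : ℕ) : K) = 0)
include h2

theorem Wd.mem {w l : List ℕ} (e : Wd D T w l) : gw (stS D K) w ∈ Γ := by
  have := ringChar.of_eq (CharP.ringChar_of_prime_eq_zero Nat.prime_two h2)
  have a : gw (stS D K) w ∈ (hT.autSt S hS hp φ).fix := Aut.mem_fix.2 (by
    refine Eq.trans ?_ (gw_run h2 e.2.2)
    rw [gw, gw, map_list_prod, List.map_map, List.map_map]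
    refine congrArg List.prod (List.map_congr_left fun r hr => ?_)
    rw [Function.comp, hT.autSt_xN S hS hp φ (e.1 r hr)]
    rcases (hT.base.1 r (e.1 r hr)).2.2.1 with e | e <;> simp [e, CharTwo.neg_eq])
  exact e.2.1.elim (fun b => h.UP_le ⟨gw_mem b, a⟩) fun b => h.UN_le ⟨gw_mem b, a⟩

variable {τ : E →* D.SteinbergGroup K} (s : St Γ τ) {p : ℕ} {rk : ℕ → ℕ} {rep : ℕ → Rt D} {n j k : ℕ}
  (R : Rk S p rk rep n)
include s R

theorem St.lift_hd (hk : k ≤ n) {w l : List ℕ} (e : Wd D T w l ∧ Hd rk rep k w) : 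
    ∃ g, rS τ g = gw (stS D K) w ∧ g ∈ AB rk τ k ∧ g ∉ AB rk τ (k + 1) := by
  obtain ⟨g, a⟩ := s.surj _ (e.1.mem h h2)
  have b : Co (stS D K) rk (rep k) k (τ g) 1 := a ▸ e.2.co
  have b' := (stS D K).U_mono (T := {r | Pos r}) (fun _ h => h.1) (R.mem_of_co hk b)
  exact ⟨⟨g, (stS D K).UP_le_B b'⟩, a, R.mem_of_co hk b, R.not_mem (stCover D K) hk b one_ne_zero⟩

variable [Conn D] (hp' : (p : K) = 0)
include hp'

theorem St.pa_word (hj : j ≤ n) {a b w l l' l'' : List ℕ} {i i' : ℕ} (e : (i ≤ n ∧ Wd D T a l ∧ Hd rk rep i a) ∧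
    (i' ≤ n ∧ Wd D T b l' ∧ Hd rk rep i' b) ∧ run D (a ++ b ++ a.reverse ++ b.reverse) l'' = w ∧ Hd rk rep j w)
    (tr : ∀ l : K, l ≠ 0 → ∃ g ∈ TB τ, Ac (AB rk τ) (cB rk rep n τ) j g l) : Pa (rS τ).ker (AB rk τ) j k := by
  have C := s.ch h (stCover D K) (stS_mult D K) R hp'
  obtain ⟨x, a1, a2, -⟩ := s.lift_hd h h2 R e.1.1 e.1.2
  obtain ⟨y, b1, b2, -⟩ := s.lift_hd h h2 R e.2.1.1 e.2.1.2
  have c : Co (stS D K) rk (rep j) j (rS τ ⁅x, y⁆) 1 := by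
    rw [map_commutatorElement, a1, b1, gw_comm h2 e.2.2.1]; exact e.2.2.2.co
  exact C.pa_comm' (Subgroup.commutator_mem_commutator (C.le0 _ a2) (C.le0 _ b2)) (R.mem_of_co hj c)
    (R.not_mem (stCover D K) hj c one_ne_zero) tr

end Cfsg.Agent.TwM
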